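import Cfsg.Agent.H22.Al0

/-! A certificate. -/

set_option autoImplicit false
set_option maxRecDepth 100000
set_option maxHeartbeats 400000
set_option linter.style.longLine false

namespace H22.Al
open Cfsg H7.J4 H29 H29.J4m H29.U Subgroup

theorem al4 : alC (kmul (lgetD kone qL 1) (kmul (lgetD kone qL 0) kone)) = true := by decide +kernel

end H22.Al
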