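import Cfsg.Agent.H22.Al1
import Cfsg.Agent.H22.Al2
import Cfsg.Agent.H22.Al3
import Cfsg.Agent.H22.Al4
import Cfsg.Agent.H22.Al5

/-! The action of `t` on `2^11 : M24`. -/

set_option autoImplicit false
set_option maxRecDepth 100000
set_option maxHeartbeats 400000
set_option linter.style.longLine false

namespace H22.Al
open Cfsg H7.J4 H29 H29.J4m H29.U Subgroup

theorem gE (m : ℕ → ℕ → ℕ) (f : ℕ → Bool) (a b c : ℕ) (L : List ℕ) (h1 : allE m f L c = true) (h2 : allE m f L (m a c) = true)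
    (h3 : allE m f L (m b c) = true) (h4 : allE m f L (m b (m a c)) = true) : allE m f (a :: b :: L) c = true :=
  band_iff.2 ⟨band_iff.2 ⟨h1, h3⟩, band_iff.2 ⟨h2, h4⟩⟩
theorem gF (F : ℕ → ℕ → ℕ → ℕ → ℕ → ℕ → ℕ → ℕ → ℕ → Bool) (s0 s1 s2 s3 r a b d c : ℕ) :
    (force s0 fun s0 => force s1 fun s1 => force s2 fun s2 => force s3 fun s3 => force r fun r => force a fun a =>
      force b fun b => force d fun d => force c fun c => F s0 s1 s2 s3 r a b d c) = F s0 s1 s2 s3 r a b d c := rfl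
noncomputable def F0 (s0 s1 s2 s3 r a b d c : ℕ) : Bool := allE kmul (fa1 [s0, s1, s2, s3] r kone a b d) (qL.drop 2) c
theorem F0_eq (s0 s1 s2 s3 r a b d c : ℕ) :
    F0 s0 s1 s2 s3 r a b d c = allE kmul (fa1 [s0, s1, s2, s3] r kone a b d) (qL.drop 2) c := rfl
theorem alC_eq (c : ℕ) : alC c =
    allE kmul (fa1 [sI 0, sI 1, sI 2, sI 3] (kc (wr.c kmul kone L4)) kone (kc cg) (kc cA) (kc cB)) (qL.drop 2) c :=
  (gF (fun s0 s1 s2 s3 r a b d c => allE kmul (fa1 [s0, s1, s2, s3] r kone a b d) (qL.drop 2) c) _ _ _ _ _ _ _ _ c :)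
theorem qq : qL = lgetD kone qL 0 :: lgetD kone qL 1 :: qL.drop 2 := by decide +kernel
theorem alA : allE kmul (fa1 [sI 0, sI 1, sI 2, sI 3] (kc (wr.c kmul kone L4)) kone (kc cg) (kc cA) (kc cB)) qL kone = true :=
  (congrArg (fun L => allE kmul (fa1 [sI 0, sI 1, sI 2, sI 3] (kc (wr.c kmul kone L4)) kone (kc cg) (kc cA) (kc cB)) L kone) qq).trans
    (gE _ _ _ _ _ _ ((alC_eq _).symm.trans al1) ((alC_eq _).symm.trans al2) ((alC_eq _).symm.trans al3) ((alC_eq _).symm.trans al4))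

theorem al {G : Type*} [Group G] [Finite G] {M : Model G} {x y e t : G} (f : Fr M x y e) (q : Qs M e) (ht : Tt x y e t) :
    Ac M t cg cg ∨ Ac M t cg cA ∨ Ac M t cg cB := al' alA f q ht

end H22.Al
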