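import Cfsg.Agent.H29.U1

/-! Data for the action of `t` on `2^11 : M24`. -/

set_option autoImplicit false
set_option maxRecDepth 100000
set_option maxHeartbeats 400000
set_option linter.style.longLine false

namespace H22.Al
open Cfsg H7.J4 H29 H29.J4m H29.U Subgroup

def wS : List Ex := [.m (.m (.m (.m (.m (.m (.m (.v 1) (.m (.v 0) (.v 1))) (.m (.v 0) (.m (.v 2) (.v 0)))) (.m (.m (.v 2) (.m (.v 0) (.v 1))) (.m (.m (.v 0) (.v 1)) (.m (.v 0) (.v 1))))) (.m (.m (.m (.v 0) (.m (.v 1) (.v 0))) (.m (.m (.v 1) (.v 0)) (.m (.v 2) (.v 0)))) (.m (.m (.v 2) (.m (.v 0) (.v 1))) (.m (.m (.v 0) (.v 1)) (.m (.v 0) (.v 1)))))) (.m (.m (.m (.m (.v 1) (.m (.v 0) (.v 1))) (.m (.v 0) (.m (.v 2) (.v 0)))) (.m (.m (.v 2) (.m (.v 0) (.v 1))) (.m (.m (.v 0) (.v 1)) (.m (.v 0) (.v 1))))) (.m (.m (.m (.v 0) (.m (.v 1)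 (.v 0))) (.m (.m (.v 1) (.v 0)) (.m (.v 2) (.v 0)))) (.m (.m (.v 2) (.m (.v 0) (.v 1))) (.m (.m (.v 0) (.v 1)) (.m (.v 0) (.v 1))))))) (.m (.m (.m (.m (.m (.v 1) (.m (.v 0) (.v 1))) (.m (.v 0) (.m (.v 2) (.v 0)))) (.m (.m (.v 2) (.m (.v 0) (.v 1))) (.m (.m (.v 0) (.v 1)) (.m (.v 0) (.v 1))))) (.m (.m (.m (.v 0) (.m (.v 1) (.v 0))) (.m (.m (.v 1) (.v 0)) (.m (.v 2) (.v 0)))) (.m (.m (.v 2) (.m (.v 0) (.v 1))) (.m (.m (.v 0) (.v 1)) (.m (.v 0) (.v 1)))))) (.m (.m (.m (.m (.v 0) (.m (.v 1) (.v 0))) (.m (.m (.v 1) (.v 0)) (.m (.v 2) (.v 0)))) (.m (.m (.v 2) (.m (.v 0) (.v 1))) (.m (.m (.v 0) (.v 1)) (.m (.v 0) (.v 1))))) (.m (.m (.m (.v 1) (.m (.v 0) (.v 1))) (.m (.m (.v 0) (.v 2)) (.m (.v 0) (.v 2)))) (.m (.m (.v 0) (.m (.v 1) (.v 0))) (.m (.m (.v 1) (.v 0)) (.m (.v 1) (.v 0)))))))) (.m (.m (.m (.m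 (.m (.m (.v 1) (.m (.v 0) (.v 1))) (.m (.v 0) (.m (.v 2) (.v 0)))) (.m (.m (.v 2) (.m (.v 0) (.v 1))) (.m (.m (.v 0) (.v 1)) (.m (.v 0) (.v 1))))) (.m (.m (.m (.v 0) (.m (.v 1) (.v 0))) (.m (.m (.v 1) (.v 0)) (.m (.v 2) (.v 0)))) (.m (.m (.v 2) (.m (.v 0) (.v 1))) (.m (.m (.v 0) (.v 1)) (.m (.v 0) (.v 1)))))) (.m (.m (.m (.m (.v 1) (.m (.v 0) (.v 1))) (.m (.v 0) (.m (.v 2) (.v 0)))) (.m (.m (.v 2) (.m (.v 0) (.v 1))) (.m (.m (.v 0) (.v 1)) (.m (.v 0) (.v 1))))) (.m (.m (.m (.v 1) (.m (.v 0) (.v 1))) (.m (.m (.v 0) (.v 2)) (.m (.v 0) (.v 2)))) (.m (.m (.v 0) (.m (.v 1) (.v 0))) (.m (.m (.v 1) (.v 0)) (.m (.v 1) (.v 0))))))) (.m (.m (.m (.m (.m (.v 1) (.m (.v 0) (.v 1))) (.m (.v 0) (.m (.v 2) (.v 0)))) (.m (.m (.v 2) (.m (.v 0) (.v 1))) (.m (.m (.v 0) (.v 1)) (.m (.v 0) (.v 1))))) (.m (.m (.m (.v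 0) (.m (.v 1) (.v 0))) (.m (.m (.v 1) (.v 0)) (.m (.v 2) (.v 0)))) (.m (.m (.v 2) (.m (.v 0) (.v 1))) (.m (.m (.v 0) (.v 1)) (.m (.v 0) (.v 1)))))) (.m (.m (.m (.m (.v 1) (.m (.v 0) (.v 1))) (.m (.m (.v 0) (.v 2)) (.m (.v 0) (.v 2)))) (.m (.m (.v 0) (.m (.v 1) (.v 0))) (.m (.m (.v 1) (.v 0)) (.m (.v 1) (.v 0))))) (.m (.m (.m (.v 1) (.m (.v 0) (.v 1))) (.m (.m (.v 0) (.v 2)) (.m (.v 0) (.v 2)))) (.m (.m (.v 0) (.m (.v 1) (.v 0))) (.m (.m (.v 1) (.v 0)) (.m (.v 1) (.v 0)))))))), .m (.m (.m (.m (.m (.m (.m (.v 0) (.v 1)) (.m (.v 0) (.m (.v 1) (.v 0)))) (.m (.m (.v 2) (.v 0)) (.m (.v 2) (.m (.v 0) (.v 1))))) (.m (.m (.m (.v 0) (.v 1)) (.m (.v 0) (.m (.v 1) (.v 1)))) (.m (.m (.v 0) (.v 1)) (.m (.v 0) (.m (.v 2) (.v 0)))))) (.m (.m (.m (.m (.v 2) (.v 0)) (.m (.v 1) (.m (.v 0) (.v 1)))) (.m (.m (.v 0)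 (.v 1)) (.m (.v 0) (.m (.v 1) (.v 0))))) (.m (.m (.m (.v 1) (.v 0)) (.m (.v 2) (.m (.v 0) (.v 2)))) (.m (.m (.v 0) (.v 1)) (.m (.v 0) (.m (.v 1) (.v 0))))))) (.m (.m (.m (.m (.m (.v 1) (.v 1)) (.m (.v 0) (.m (.v 1) (.v 0)))) (.m (.m (.v 2) (.v 0)) (.m (.v 2) (.m (.v 0) (.v 1))))) (.m (.m (.m (.v 0) (.v 1)) (.m (.v 0) (.m (.v 1) (.v 0)))) (.m (.m (.v 1) (.v 0)) (.m (.v 1) (.m (.v 0) (.v 2)))))) (.m (.m (.m (.m (.v 0) (.v 2)) (.m (.v 0) (.m (.v 1) (.v 0)))) (.m (.m (.v 1) (.v 0)) (.m (.v 1) (.m (.v 1) (.v 0))))) (.m (.m (.m (.v 1) (.v 0)) (.m (.v 2) (.m (.v 0) (.v 2)))) (.m (.m (.v 0) (.m (.v 1) (.v 0))) (.m (.v 1) (.m (.v 0) (.v 1)))))))) (.m (.m (.m (.m (.m (.m (.v 1) (.v 0)) (.m (.v 1) (.m (.v 0) (.v 2)))) (.m (.m (.v 0) (.v 2)) (.m (.v 0) (.m (.v 1) (.v 0))))) (.m (.m (.m (.v 1) (.v 0)) (.m (.v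 1) (.m (.v 0) (.v 1)))) (.m (.m (.v 0) (.v 1)) (.m (.v 0) (.m (.v 2) (.v 0)))))) (.m (.m (.m (.m (.v 2) (.v 0)) (.m (.v 1) (.m (.v 0) (.v 1)))) (.m (.m (.v 0) (.v 1)) (.m (.v 0) (.m (.v 1) (.v 0))))) (.m (.m (.m (.v 1) (.v 0)) (.m (.v 2) (.m (.v 0) (.v 2)))) (.m (.m (.v 0) (.m (.v 1) (.v 0))) (.m (.v 1) (.m (.v 0) (.v 1))))))) (.m (.m (.m (.m (.m (.v 1) (.v 0)) (.m (.v 1) (.m (.v 0) (.v 2)))) (.m (.m (.v 0) (.v 2)) (.m (.v 0) (.m (.v 1) (.v 0))))) (.m (.m (.m (.v 1) (.v 0)) (.m (.v 1) (.m (.v 0) (.v 1)))) (.m (.m (.v 0) (.v 1)) (.m (.v 0) (.m (.v 2) (.v 0)))))) (.m (.m (.m (.m (.v 2) (.v 0)) (.m (.v 1) (.m (.v 0) (.v 1)))) (.m (.m (.v 0) (.v 1)) (.m (.v 1) (.m (.v 0) (.v 1))))) (.m (.m (.m (.v 0) (.v 2)) (.m (.v 0) (.m (.v 2) (.v 0)))) (.m (.m (.v 1) (.m (.v 0) (.v 1))) (.m (.v 0) (.m (.v 1) (.v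 0))))))))]
def wg : Ex := .m (.m (.m (.v 0) (.v 1)) (.m (.v 2) (.v 3))) (.m (.m (.v 4) (.v 8)) (.m (.v 9) (.m (.v 11) (.v 12))))
def wqA : Ex := .m (.m (.v 0) (.v 1)) (.m (.v 3) (.m (.v 4) (.v 5)))
def wqB : Ex := .m (.m (.v 2) (.m (.v 5) (.v 8))) (.m (.v 9) (.m (.v 11) (.v 12)))

noncomputable def cmL (S : List ℕ) (c : ℕ) : Bool :=
  allL (fun s => force (kmul s c) fun u => force (kmul c s) fun v => Nat.beq u v) S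
noncomputable def fa1 (S : List ℕ) (r R a b d c : ℕ) : Bool :=
  force (kmul c c) fun s => Bool.rec (motive := fun _ => Bool) true
    (Bool.rec (motive := fun _ => Bool) true
      (force (kmul c r) fun u => force (kmul u u) fun v => force (kmul v u) fun w =>
        Bool.rec (motive := fun _ => Bool) true (Nat.beq c kone || Nat.beq c a || Nat.beq c b || Nat.beq c d) (Nat.beq w R))
      (cmL S c)) (Nat.beq s kone)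
noncomputable def kc (c : ℕ) : ℕ := kmul (kmul (wK.c kmul kone L4) c) (wk.c kmul kone L4)
noncomputable def sI (i : ℕ) : ℕ := kc ((wS.getD i (.v 9)).c kmul kone L4)
noncomputable def alC (c : ℕ) : Bool :=
  force (sI 0) fun s0 => force (sI 1) fun s1 => force (sI 2) fun s2 => force (sI 3) fun s3 =>
  force (kc (wr.c kmul kone L4)) fun r => force (kc cg) fun a => force (kc cA) fun b => force (kc cB) fun d =>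
  force c fun c => allE kmul (fa1 [s0, s1, s2, s3] r kone a b d) (qL.drop 2) c

end H22.Al
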