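import Cfsg.Agent.H22.GrA
import Cfsg.Agent.H14.Wall5
import Cfsg.Agent.H23.Disc

/-! Conjugacy classes of semisimple elements of odd prime order in orthogonal groups. -/

set_option autoImplicit false

namespace H22

open Module H23 H23.Form Matrix Cfsg Subgroup Polynomial

attribute [-simp] conj_apply

variable {F V N : Type*} [Field F] [AddCommGroup V] [Module F V] [FiniteDimensional F V] [Group N]
  {Φ : Form (RingHom.id F) V} (hΦ : Φ.Nondeg) (hκ : Φ.κ = 1) (hg : GenHyp Φ) (h2 : (2 : F) ≠ 0)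

include h2 in
theorem exists_negOn [Finite F] {W ι : Type*} [AddCommGroup W] [Module F W] [Fintype ι]
    [DecidableEq ι] (j : W →ₗ[F] V) {β : LinearMap.BilinForm F W}
    (hβ : ∀ a c, Φ.B (j a) (j c) = β a c) (b : Basis ι F W) (hb : (β.toMatrix b).det ≠ 0) :
    ∃ ρ : Φ.O, (∀ a, ρ.1 (j a) = -j a) ∧ (∀ v, (∀ a, Φ.B (j a) v = 0) → ρ.1 v = v) ∧
      dickson hΦ hκ hg ρ = (-1) ^ finrank F W ∧
      spin hΦ hκ ρ * sqc ((2 : F) ^ finrank F W) = sqc (β.toMatrix b).det := by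
  classical
  haveI := Module.Finite.of_basis b
  haveI := invertibleOfNonzero h2
  obtain ⟨c, hc⟩ := LinearMap.BilinForm.exists_orthogonal_basis (B := β)
    ⟨fun x y => by rw [← hβ, ← hβ, B_comm_quad hκ]; rfl⟩
  replace hc : ∀ i k, i ≠ k → Φ.B (j (c i)) (j (c k)) = 0 := fun i k h => (hβ _ _).trans (hc h)
  obtain ⟨r, hr, h1⟩ := gram_det_change β b c
  have h3 : β.toMatrix c = diagonal fun i => 2 * Φ.Q (j (c i)) := by
    ext i k
    rw [LinearMap.BilinForm.toMatrix_apply, ← hβ]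
    by_cases h : i = k
    · subst h; rw [diagonal_apply_eq, B_self_quad hκ]
    · rw [diagonal_apply_ne _ h, hc i k h]
  rw [h3, det_diagonal, Finset.prod_mul_distrib] at h1
  have h4 : ∏ i, Φ.Q (j (c i)) ≠ 0 := fun h => by
    rw [h, mul_zero] at h1; exact mul_ne_zero (pow_ne_zero 2 hr) hb h1.symm
  have hQ : ∀ i, Φ.Q (j (c i)) ≠ 0 := fun i => Finset.prod_ne_zero_iff.1 h4 i (Finset.mem_univ _)
  have key : ∀ s : Finset _, ∃ g : Φ.O,
      (∀ i, g.1 (j (c i)) = if i ∈ s then -j (c i) else j (c i)) ∧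
      (∀ v, (∀ a, Φ.B (j a) v = 0) → g.1 v = v) ∧
      ∀ φ : Φ.O →* ℤˣ, φ g = ∏ i ∈ s, φ (refl hκ (j (c i))) := by
    intro s
    induction s using Finset.induction_on with
    | empty => exact ⟨1, by simp, by simp, by simp⟩
    | insert k s hk ih =>
      obtain ⟨g, g1, g2, g3⟩ := ih
      refine ⟨refl hκ (j (c k)) * g, fun i => ?_, fun v hv => by
        rw [O_mul_apply, g2 v hv, refl_apply_of_perp hκ (hv _)],
        fun φ => by rw [map_mul, g3, Finset.prod_insert hk]⟩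
      rw [O_mul_apply, g1]
      by_cases hij : i = k
      · subst hij; simp [hk, refl_apply_self hκ (hQ i)]
      · by_cases hi : i ∈ s <;> simp [hij, hi, refl_apply_of_perp hκ (hc k i (Ne.symm hij))]
  obtain ⟨g, g1, g2, g3⟩ := key Finset.univ
  refine ⟨g, fun a => ?_, g2, by simp [g3, dickson_refl hΦ hκ hg (hQ _)], ?_⟩
  · exact LinearMap.congr_fun (c.ext (f₁ := g.1.toLinearMap ∘ₗ j) (f₂ := -j) fun i => by
      simpa using g1 i) a
  · rw [g3, Finset.prod_congr rfl fun i _ => spin_refl hΦ hκ (hQ i), ← sqc_prod _ fun i _ => hQ i,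
      ← sqc_mul h4 (pow_ne_zero _ h2), mul_comm]
    simp only [Finset.prod_const, Finset.card_univ, Fintype.card_fin] at h1
    rw [h1, sqc_mul (pow_ne_zero 2 hr) hb, sqc_eq_one_iff.2 ⟨r, sq r⟩, one_mul]

include h2 in
theorem exists_spin_plane [Finite F] {K : Type*} [Field K] [Algebra F K] [FiniteDimensional F K]
    (j : K →ₗ[F] V) {h s : End F V} {θ D : K} (hD : D ≠ 0) {l : K →ₗ[F] F} (hl : l 1 ≠ 0)
    (h1 : ∀ a, h (j a) = j (θ * a)) (h3 : ∀ a, s (s (j a)) = j (D * a))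
    (h4 : ∀ a c, Φ.B (j a) (j c) = l (a * c)) (h5 : ∀ a c, Φ.B (j a) (s (j c)) = 0)
    (h6 : ∀ x y, Φ.B (s x) y = -Φ.B x (s y)) (h7 : ∀ x y, Φ.B (h x) y = Φ.B x (h y))
    (h8 : ∀ x, h (s x) = s (h x)) : ∃ t : Φ.O, dickson hΦ hκ hg t = 1 ∧ spin hΦ hκ t = -1 ∧
      (∀ v, t.1 (h v) = h (t.1 v)) ∧ ∀ v, t.1 (s v) = s (t.1 v) := by
  classical
  haveI := Module.finite_of_finite F (M := K)
  letI := Fintype.ofFinite K
  obtain ⟨ν, hν⟩ := FiniteField.exists_nonsquare (ringChar_ne_two h2)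
  obtain ⟨n, rfl⟩ := FiniteField.norm_surjective F K ν
  have hn : n ≠ 0 := by rintro rfl; simp at hν
  obtain ⟨α, β, h9⟩ : ∃ α β : K, α ^ 2 - D * β ^ 2 = n := by
    obtain ⟨a, b, h⟩ := FiniteField.exists_root_sum_quadratic (R := K) (f := X ^ 2 - C n)
      (g := C (-D) * X ^ 2) (degree_X_pow_sub_C two_pos n) (degree_C_mul_X_pow 2 (neg_ne_zero.2 hD))
      (Nat.odd_iff.1 (odd_card_of_two_ne_zero fun h => h2 ((algebraMap F K).injective (by
        rw [map_ofNat, h, map_zero]))))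
    exact ⟨a, b, by simp at h; linear_combination h⟩
  let J : K × K →ₗ[F] V := j.coprod (s ∘ₗ j)
  have hJ : ∀ a c, J (a, c) = j a + s (j c) := fun _ _ => rfl
  have hB : ∀ a c a' c', Φ.B (J (a, c)) (J (a', c')) = l (a * a' - D * c * c') := fun a c a' c' => by
    simp only [hJ, map_add, LinearMap.add_apply, h4, h5, h6, h3, map_sub]
    rw [mul_left_comm, mul_assoc]; ring
  have hl' : ∀ a, (∀ c, l (a * c) = 0) → a = 0 := fun a ha => by_contra fun h0 =>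
    hl (by rw [← ha a⁻¹, mul_inv_cancel₀ h0])
  let b := finBasis F K
  let B : LinearMap.BilinForm F K := (LinearMap.mul F K).compr₂ l
  have hb : (B.toMatrix b).det ≠ 0 := (LinearMap.BilinForm.nondegenerate_iff_det_ne_zero b).mp
    (LinearMap.BilinForm.Nondegenerate.ofSeparatingLeft hl')
  have hb' : ((B.compRight (LinearMap.mul F K n)).toMatrix b).det =
      (B.toMatrix b).det * Algebra.norm F n := by
    rw [LinearMap.BilinForm.toMatrix_compRight, det_mul, LinearMap.det_toMatrix]; rfl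
  have hν0 : Algebra.norm F n ≠ 0 := fun h => hν (by simp [h])
  obtain ⟨ρ, r1, r2, r3, r4⟩ := exists_negOn hΦ hκ hg h2 j (β := B) h4 b hb
  obtain ⟨τ, t1, t2, t3, t4⟩ := exists_negOn hΦ hκ hg h2
    (J ∘ₗ (LinearMap.mul F K α).prod (LinearMap.mul F K β)) (β := B.compRight (LinearMap.mul F K n))
    (fun a c => (hB _ _ _ _).trans (congrArg l (by simp [← h9]; ring))) b
    (hb' ▸ mul_ne_zero hb hν0)
  have c1 : ∀ z w, (ρ * τ).1 (J (α * z + D * β * w, β * z + α * w)) =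
      J (α * z - D * β * w, α * w - β * z) := fun z w => by
    have e1 : τ.1 (J (α * z, β * z)) = -J (α * z, β * z) := t1 z
    have e2 : τ.1 (J (D * β * w, α * w)) = J (D * β * w, α * w) := t2 _ fun a =>
      (hB _ _ _ _).trans (by simp only [LinearMap.mul_apply', Function.prod]; ring_nf; simp)
    rw [O_mul_apply, ← Prod.mk_add_mk, map_add, map_add, e1, e2, ← map_neg, ← map_add, Prod.neg_mk,
      Prod.mk_add_mk, hJ, hJ, map_add, r1, r2 _ fun a => h5 _ _, ← map_neg]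
    congr 2
    · ring_nf
    · ring_nf
  have c2 : ∀ y ∈ Φ.perp (LinearMap.range J), (ρ * τ).1 y = y := fun y hy => by
    rw [O_mul_apply, t2 y fun a => hy _ ⟨_, rfl⟩, r2 y fun a => hy _ ⟨(a, 0), by simp [hJ]⟩]
  have c3 : IsCompl (LinearMap.range J) (Φ.perp (LinearMap.range J)) := by
    refine hΦ.isCompl_perp (Submodule.disjoint_def.2 ?_)
    rintro _ ⟨⟨a, c⟩, rfl⟩ hx
    rw [hl' a fun x => by simpa [mul_comm] using (hB x 0 a c).symm.trans (hx _ ⟨_, rfl⟩),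
      (mul_eq_zero.1 (hl' (D * c) fun x => by
        simpa [mul_right_comm] using (hB 0 x a c).symm.trans (hx _ ⟨_, rfl⟩))).resolve_left hD]
    exact map_zero J
  have c4 : ∀ T : End F V, (∀ y ∈ Φ.perp (LinearMap.range J), T y ∈ Φ.perp (LinearMap.range J)) →
      (∀ z w, (ρ * τ).1 (T (J (α * z + D * β * w, β * z + α * w))) =
        T (J (α * z - D * β * w, α * w - β * z))) → ∀ v, (ρ * τ).1 (T v) = T ((ρ * τ).1 v) := by
    intro T a1 a2 v
    obtain ⟨_, ⟨⟨a, c⟩, rfl⟩, y, hy, rfl⟩ := Submodule.mem_sup.1 (c3.sup_eq_top ▸ Submodule.mem_top (x := v))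
    obtain ⟨z, w, rfl, rfl⟩ : ∃ z w, a = α * z + D * β * w ∧ c = β * z + α * w :=
      ⟨(a * α - D * c * β) / n, (c * α - a * β) / n, by field_simp; rw [← h9]; ring,
        by field_simp; rw [← h9]; ring⟩
    rw [map_add, map_add, map_add, map_add, a2, c1, c2 y hy, c2 _ (a1 y hy)]
  have d1 : ∀ a c, h (J (a, c)) = J (θ * a, θ * c) := fun a c => by simp only [hJ, map_add, h1, h8]
  have d2 : ∀ a c, s (J (a, c)) = J (D * c, a) := fun a c => by
    simp only [hJ, map_add, h3, add_comm]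
  refine ⟨ρ * τ, by rw [map_mul, r3, t3, Int.units_mul_self], ?_, c4 h ?_ fun z w => ?_,
    c4 s ?_ fun z w => ?_⟩
  · rw [hb', sqc_mul hb hν0, ← r4, sqc_of_not hν, mul_right_comm, mul_left_inj] at t4
    rw [map_mul, t4, ← mul_assoc, Int.units_mul_self, one_mul]
  · rintro y hy _ ⟨⟨a, c⟩, rfl⟩
    rw [← h7, d1]; exact hy _ ⟨_, rfl⟩
  · rw [d1, d1]
    convert c1 (θ * z) (θ * w) using 4 <;> ring
  · rintro y hy _ ⟨⟨a, c⟩, rfl⟩
    rw [← neg_eq_zero, ← h6, d2]; exact hy _ ⟨_, rfl⟩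
  · rw [d2, d2]
    convert c1 (D * w) z using 4 <;> ring

omit [FiniteDimensional F V] in
theorem B_aeval {h : End F V} (h7 : ∀ x y, Φ.B (h x) y = Φ.B x (h y)) (p : F[X]) (x y : V) :
    Φ.B (aeval h p x) y = Φ.B x (aeval h p y) := by
  have : ∀ (n : ℕ) x y, Φ.B ((h ^ n) x) y = Φ.B x ((h ^ n) y) := fun n => by
    induction n with
    | zero => simp
    | succ n ih => intro x y; rw [pow_succ', End.mul_apply, h7, ih, ← pow_succ', pow_succ]; rfl
  induction p using Polynomial.induction_on' with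
  | add p q hp hq => simp [hp, hq]
  | monomial n a => simp [aeval_monomial, this]

include hΦ hκ in
theorem exists_irr_nonsing [Nontrivial V] {h : End F V} (hs : h.IsSemisimple)
    (h7 : ∀ x y, Φ.B (h x) y = Φ.B x (h y)) :
    ∃ φ : F[X], φ.Monic ∧ Irreducible φ ∧ ∃ u, aeval h φ u = 0 ∧ Φ.Q u ≠ 0 := by
  obtain ⟨φ, a1, a2, ψ, a3⟩ := exists_monic_irreducible_factor _ (minpoly.not_isUnit F h)
  refine ⟨φ, a1, a2, by_contra fun H => a2.not_isUnit (hs.minpoly_squarefree φ ?_)⟩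
  push Not at H
  replace H : ∀ x, Φ.Q (aeval h ψ x) = 0 := fun x => H _ (by
    rw [← End.mul_apply, ← map_mul, ← a3, minpoly.aeval]; rfl)
  have : φ ∣ ψ * ψ := (Dvd.intro _ a3.symm).trans (minpoly.dvd F h (LinearMap.ext fun x => hΦ _ fun y => by
    have := Q_add_quad hκ (aeval h ψ x) (aeval h ψ y)
    rw [← map_add, H, H, H] at this
    rw [map_mul, End.mul_apply, B_aeval h7]; simpa using this.symm))
  rw [a3]
  exact mul_dvd_mul_left _ ((or_self_iff).1 (a2.prime.dvd_or_dvd this))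

omit [FiniteDimensional F V] in
theorem O_pow_coe (g : Φ.O) (n : ℕ) :
    (g ^ n).1.toLinearMap = (g.1.toLinearMap : End F V) ^ n := by
  induction n with
  | zero => rfl
  | succ n ih => rw [pow_succ, pow_succ, ← ih]; rfl

variable {g : Φ.O} {r : ℕ} (hr : Odd r) (hr0 : (r : F) ≠ 0) (hgr : g ^ r = 1)

omit [FiniteDimensional F V] in
include hr hgr in
theorem skew_inj (h0 : fixSp g = ⊥) {v : V} (hv : g.1 v - (g⁻¹).1 v = 0) : v = 0 := by
  obtain ⟨k, rfl⟩ := hr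
  have h1 : ∀ n, ((g ^ 2) ^ n).1 v = v := fun n => by
    induction n with
    | zero => rfl
    | succ n ih =>
      rw [pow_succ', O_mul_apply, ih, sq, O_mul_apply, sub_eq_zero.1 hv, O_apply_inv_apply]
  have h3 := h1 (k + 1)
  rw [← pow_mul, mul_add, mul_one, pow_succ', hgr, mul_one] at h3
  exact (Submodule.mem_bot F).1 (h0 ▸ mem_fixSp.2 h3)

include h2 hr hr0 hgr in
theorem exists_spin_free [Finite F] [Nontrivial V] (h0 : fixSp g = ⊥) :
    ∃ t, dickson hΦ hκ hg t = 1 ∧ spin hΦ hκ t = -1 ∧ Commute t g := by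
  set h : End F V := g.1.toLinearMap + (g⁻¹).1.toLinearMap with hh
  set s : End F V := g.1.toLinearMap - (g⁻¹).1.toLinearMap with hs
  have a1 : ∀ x y, Φ.B (g.1 x) y = Φ.B x (g.1.symm y) := fun x y => by
    rw [← O_B Φ g x, LinearEquiv.apply_symm_apply]
  have a2 : ∀ x y, Φ.B (g.1.symm x) y = Φ.B x (g.1 y) := fun x y => by
    rw [← O_B Φ g _ y, LinearEquiv.apply_symm_apply]
  have h6 : ∀ x y, Φ.B (s x) y = -Φ.B x (s y) := fun x y => by simp [hs, a1, a2]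
  have h7 : ∀ x y, Φ.B (h x) y = Φ.B x (h y) := fun x y => by simp [hh, a1, a2, add_comm]
  have h8 : Commute s h := LinearMap.ext fun x => by simp [hh, hs]; abel
  have h9 : ∀ p x, s (aeval h p x) = aeval h p (s x) := fun p =>
    LinearMap.congr_fun (Algebra.commute_of_mem_adjoin_singleton_of_commute
      (aeval_mem_adjoin_singleton F h) h8).eq
  have a3 : ∀ x, s (s x) = aeval h (X ^ 2 - C (4 : F)) x := fun x => by
    rw [map_sub, aeval_C, Algebra.algebraMap_eq_smul_one]; simp [hh, hs, sq]; module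
  obtain ⟨φ, b1, b2, u, b3, b4⟩ := exists_irr_nonsing hΦ hκ (h := h) (by
    convert (End.isSemisimple_of_squarefree_aeval_eq_zero (f := g.1.toLinearMap)
      (separable_X_pow_sub_C (1 : F) hr0 one_ne_zero).squarefree
      (by simp [← O_pow_coe, hgr, End.one_eq_id])).aeval (X + X ^ (r - 1))
    rw [map_add, map_pow, aeval_X, ← O_pow_coe, hh, inv_eq_of_mul_eq_one_right (b := g ^ (r - 1))
      (by rw [mul_pow_sub_one hr.pos.ne', hgr])]) h7
  haveI := Fact.mk b2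
  haveI := (AdjoinRoot.powerBasis b2.ne_zero).finite
  let j : AdjoinRoot φ →ₗ[F] V :=
    LinearMap.applyₗ u ∘ₗ (aeval h).toLinearMap ∘ₗ AdjoinRoot.modByMonicHom b1
  have hj : ∀ p, j (AdjoinRoot.mk φ p) = aeval h p u := fun p => by
    simp [j, modByMonic_eq_sub_mul_div, mul_comm φ, b3]
  obtain ⟨t, t1, t2, t3, t4⟩ := exists_spin_plane hΦ hκ hg h2 j (h := h) (s := s)
    (θ := AdjoinRoot.mk φ X) (D := AdjoinRoot.mk φ (X ^ 2 - C 4)) (l := Φ.B u ∘ₗ j)
    (fun hD => b4 (by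
      have := hj (X ^ 2 - C 4)
      rw [hD, map_zero, ← a3] at this
      rw [skew_inj hr hgr h0 (skew_inj hr hgr h0 this.symm), Q_zero]))
    (by
      rw [← map_one (AdjoinRoot.mk φ), LinearMap.comp_apply, hj, map_one, End.one_apply,
        B_self_quad hκ]
      exact mul_ne_zero h2 b4)
    (fun a => by
      obtain ⟨a, rfl⟩ := AdjoinRoot.mk_surjective a
      rw [← map_mul, hj, hj, map_mul, aeval_X]; rfl)
    (fun a => by
      obtain ⟨a, rfl⟩ := AdjoinRoot.mk_surjective a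
      rw [← map_mul, hj, hj, map_mul, a3]; rfl)
    (fun a c => by
      obtain ⟨a, rfl⟩ := AdjoinRoot.mk_surjective a
      obtain ⟨c, rfl⟩ := AdjoinRoot.mk_surjective c
      rw [← map_mul, hj, hj, LinearMap.comp_apply, hj, map_mul, B_aeval h7]; rfl)
    (fun a c => by
      obtain ⟨a, rfl⟩ := AdjoinRoot.mk_surjective a
      obtain ⟨c, rfl⟩ := AdjoinRoot.mk_surjective c
      rw [hj, hj, B_aeval h7, ← h9, ← End.mul_apply (aeval h a), ← map_mul]
      refine mul_left_cancel₀ h2 ?_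
      rw [two_mul, mul_zero]
      nth_rw 1 [h9, ← B_aeval h7, B_comm_quad hκ, h6]
      simp)
    h6 h7 fun x => (LinearMap.congr_fun h8.eq x).symm
  refine ⟨t, t1, t2, O_ext _ fun v => smul_right_injective V h2 ?_⟩
  have : ∀ v, (2 : F) • g.1 v = h v + s v := fun v => by simp [hh, hs, two_smul]
  simp only [O_mul_apply]
  rw [← map_smul, this, this, map_add, t3, t4]

include hΦ hκ hr0 hgr in
theorem exists_fix_Q (h0 : fixSp g ≠ ⊥) : ∃ v, g.1 v = v ∧ Φ.Q v ≠ 0 := by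
  obtain ⟨a, -, -⟩ := H14.Wall.exists_decomp₁ hΦ (H14.Wall.pres_O g)
    (H16.ss_of_pow_eq_one hr0 (by rw [← O_pow_coe, hgr]; rfl)) (c := 1) (by simp)
  rw [one_smul, End.one_eq_id, ← perp_fixSp hΦ] at a
  obtain ⟨v, h1, h3⟩ := exists_Q_ne_zero_perp hκ hΦ (Z := Φ.perp (fixSp g)) fun h =>
    h0 (hΦ.perp_perp (fixSp g) ▸ disjoint_self.1 (a.disjoint.mono_left h))
  exact ⟨v, mem_fixSp.1 (hΦ.perp_perp (fixSp g) ▸ h1), h3⟩

/-- scalar multiple of a form -/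
def smulForm (δ : F) (Φ : Form (RingHom.id F) V) : Form (RingHom.id F) V where
  ε := Φ.ε
  κ := Φ.κ
  B := δ • Φ.B
  Q := fun x => δ * Φ.Q x
  invol := Φ.invol
  eps := Φ.eps
  symm x y := by simp [Φ.symm x y]; ring
  kσ := Φ.kσ
  kε := Φ.kε
  Q_add x y := by simp [Φ.Q_add]; ring
  Q_smul c x := by simp [Φ.Q_smul]; ring
  trace v := by
    obtain ⟨s, h1, h2⟩ := Φ.trace v
    exact ⟨δ * s, by simp [h1]; ring, by rw [← h2]; ring⟩

variable [Finite F] [Nontrivial V]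

include hr hr0 hgr in
theorem exists_comm_mult (δ : GO Φ) : ∃ d : GO Φ, mult hΦ d = mult hΦ δ ∧ Commute d (oGO Φ g) := by
  have h1 := mult_spec hΦ δ
  obtain ⟨e, e1, e2, e3⟩ := H14.Wall.iso_ss_odd (Φ := smulForm (mult hΦ δ : F) Φ) (Ψ := Φ)
    (fun x hx => hΦ x fun y => (mul_eq_zero.1 (hx y)).resolve_left h1.ne) hΦ rfl rfl
    ⟨δ.1, h1.B, h1.Q, fun _ => rfl⟩ (g := g.1.toLinearMap) (h := g.1.toLinearMap)
    ⟨fun x y => congrArg (_ * ·) (O_B Φ g x y), fun x => congrArg (_ * ·) (O_Q Φ g x)⟩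
    (H14.Wall.pres_O g) (H16.ss_of_pow_eq_one hr0 (by rw [← O_pow_coe, hgr]; rfl)) (H16.Sim.refl _)
    (H14.Wall.odd_eigen hr (by rw [← O_pow_coe, hgr]; rfl))
  have : IsSS Φ Φ (RingEquiv.refl F) (mult hΦ δ) e.toAddEquiv := ⟨h1.ne, e.map_smul, e1, e2⟩
  exact ⟨⟨e, _, this⟩, Units.ext (mult_eq hΦ this), Subtype.ext (LinearEquiv.ext e3)⟩

variable {M : ℕ} (hV : finrank F V = 2 * M)

include h2 hr hgr in
theorem gpar_of_free (h0 : fixSp g = ⊥) {d : GO Φ} (hd : Commute d (oGO Φ g)) :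
    gpar hΦ hκ hg hV d = 1 := by
  set s : End F V := g.1.toLinearMap - (g⁻¹).1.toLinearMap with hs
  have h1 : ∀ x, s (d.1 x) = d.1 (s x) := fun x => by
    rw [hs, LinearMap.sub_apply, LinearMap.sub_apply, map_sub]
    exact congrArg₂ _ (congrArg (fun a : GO Φ => a.1 x) hd.eq).symm
      (congrArg (fun a : GO Φ => a.1 x) hd.inv_right.eq).symm
  have h3 : LinearMap.BilinForm.IsAlt (Φ.B ∘ₗ s) := fun x => by
    simp only [hs, LinearMap.comp_apply, LinearMap.sub_apply, map_sub, LinearEquiv.coe_coe]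
    rw [← O_B Φ g ((g⁻¹).1 x), O_apply_inv_apply, B_comm_quad hκ, sub_self]
  obtain ⟨e, e1, -⟩ := exists_equiv_spForm (Φ := ofAlt _ h3)
    (fun x hx => skew_inj hr hgr h0 (hΦ _ hx)) rfl rfl hV
  refine gpar_eq_of_det hΦ hκ hg hV h2 ?_
  have := (dm_sp.1 ⟨(mult hΦ d).ne_zero, glEquiv.symm (e.trans (d.1.trans e.symm)), fun u v => by
    simp only [glEquiv_symm_mulVec, spForm_B, ← H23.spForm_B, ← e1, ofAlt_B, LinearEquiv.trans_apply,
      LinearEquiv.apply_symm_apply, LinearMap.comp_apply, h1]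
    exact (mult_spec hΦ d).B _ _, rfl⟩).2
  rw [← det_glEquiv, glEquiv.apply_symm_apply] at this
  simpa [← this] using! (LinearMap.det_conj d.1.toLinearMap e.symm).symm

include h2 hr hr0 hgr in
theorem exists_comm_pair (hδ : Function.Surjective (mult hΦ)) :
    (∃ t, dickson hΦ hκ hg t = 1 ∧ spin hΦ hκ t = -1 ∧ Commute (oGO Φ t) (oGO Φ g)) ∧
      ∃ d, gpar hΦ hκ hg hV d = 1 ∧ sqm hΦ d = -1 ∧ Commute d (oGO Φ g) := by
  obtain ⟨ν, hν⟩ := FiniteField.exists_nonsquare (ringChar_ne_two h2)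
  obtain ⟨δ, h1⟩ := hδ (Units.mk0 ν fun h => hν (h ▸ IsSquare.zero))
  obtain ⟨d, h3, h4⟩ := exists_comm_mult hΦ hr hr0 hgr δ
  replace h3 : sqm hΦ d = -1 := by rw [sqm_apply, h3, h1]; exact sqc_of_not hν
  by_cases h0 : fixSp g = ⊥
  · obtain ⟨t, t1, t2, t3⟩ := exists_spin_free hΦ hκ hg h2 hr hr0 hgr h0
    exact ⟨⟨t, t1, t2, t3.map _⟩, d, gpar_of_free hΦ hκ hg h2 hr hgr hV h0 h4, h3, h4⟩
  obtain ⟨v, v1, v2⟩ := exists_fix_Q hΦ hκ hr0 hgr h0
  have h5 : Commute (oGO Φ (refl hκ v)) (oGO Φ g) :=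
    Commute.map (mul_inv_eq_iff_eq_mul.1 ((conj_refl hκ g v).trans (by rw [v1]))).symm _
  have h6 := dickson_refl hΦ hκ hg v2
  obtain ⟨t, t1, t2, t3⟩ := exists_oGO_conj (hΦ := hΦ) hκ hg d (refl hκ v)
  refine ⟨⟨t * refl hκ v, by simp [t2, h6], by
    rw [map_mul, t3, h6, if_neg (by decide), h3, mul_right_comm, Int.units_mul_self, one_mul], by
    rw [map_mul, ← t1]; exact ((h4.mul_left h5).mul_left h4.inv_left).mul_left h5⟩, ?_⟩
  rcases Int.units_eq_one_or (gpar hΦ hκ hg hV d) with h | h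
  · exact ⟨d, h, h3, h4⟩
  · exact ⟨d * oGO Φ (refl hκ v), by simp [h, gpar_oGO, h6], by rw [sqm_mul_oGO, h3],
      h4.mul_left h5⟩

theorem conjUnder_iff {G : Type*} [Group G] {H K : Subgroup G} (h1 : K ≤ H) {x : G}
    (h : ∀ a ∈ H, ∃ c, Commute c x ∧ a * c ∈ K) (y : G) : IsConjUnder K x y ↔ IsConjUnder H x y :=
  ⟨fun ⟨a, ha, e⟩ => ⟨a, h1 ha, e⟩, fun ⟨a, ha, e⟩ => by
    obtain ⟨c, c1, c2⟩ := h a ha
    exact ⟨_, c2, by rw [e, mul_assoc a c, c1.eq]; group⟩⟩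

variable {hΦ} {ρ : N →* Φ.O} (m : Model hΦ ρ)

include hr in
theorem Model.exists_lift_odd {x : MulAut (N ⧸ center N)} (hx : x ∈ m.sim.range) (h : x ^ r = 1) :
    ∃ g : Φ.O, g ^ r = 1 ∧ x = m.sim (oGO Φ g) := by
  obtain ⟨d, rfl⟩ := hx
  obtain ⟨c, hc⟩ := m.sim_eq_iff.1 ((map_pow m.sim d r).trans (h.trans (map_one _).symm))
  obtain ⟨c', s, rfl⟩ := (sqm_eq_one_iff hΦ (g := d)).1 (by
    have : sqm hΦ (d ^ r) = 1 := (sqm_eq_one_iff hΦ).2 ⟨c, 1, by rw [hc, map_one]⟩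
    rcases Int.units_eq_one_or (sqm hΦ d) with h | h
    · exact h
    · rw [map_pow, h, hr.neg_one_pow] at this; exact absurd this (by decide))
  rw [m.sim_sGO_mul] at h ⊢
  obtain ⟨z, hz⟩ := m.sim_eq_iff.1 ((map_pow m.sim _ r).trans (h.trans (map_one _).symm))
  have h1 : z * z = 1 := by
    rw [← mult_sGO hΦ, ← mul_one (sGO Φ z), ← hz, ← map_pow, mult_oGO]
  have h3 : oGO Φ (scal Φ z (congrArg Units.val h1) * s) = sGO Φ z * oGO Φ s :=
    Subtype.ext (LinearEquiv.ext fun _ => rfl)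
  refine ⟨_, inclusion_injective O_le_GO ?_, by rw [h3, m.sim_sGO_mul]⟩
  obtain ⟨k, rfl⟩ := hr
  change oGO Φ _ = oGO Φ 1
  rw [map_pow, h3, (commute_sGO _ _).mul_pow, hz, mul_one, ← map_pow, ← map_mul, ← pow_succ,
    add_assoc, ← two_mul 1, ← mul_add, pow_mul, sq, h1, one_pow, map_one, map_one]

include h2 hr hr0 in
theorem Model.classes_odd (hρ : ρ.range = commutator Φ.O) (hδ : Function.Surjective (mult hΦ))
    {x : MulAut (N ⧸ center N)} (hx : x ∈ m.sim.range) (h : x ^ r = 1) :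
    (∀ y, (IsConjUnder (Inn _) x y ↔ IsConjUnder (m.idg hκ hg hV) x y) ∧
      (IsConjUnder (m.pso hκ hg) x y ↔ IsConjUnder (m.idg hκ hg hV) x y)) ∧
    ∀ y, IsConjUnder (m.sim.comp (oGO Φ)).range x y ↔ IsConjUnder m.sim.range x y := by
  obtain ⟨g, hgr, rfl⟩ := m.exists_lift_odd hr hx h
  obtain ⟨⟨t, t1, t2, t3⟩, d, d1, d2, d3⟩ := exists_comm_pair hΦ hκ hg h2 hr hr0 hgr hV hδ
  have a1 : ∀ a : GO Φ, ∃ c, Commute c (oGO Φ g) ∧ gpar hΦ hκ hg hV c = 1 ∧
      ∃ z s, a * c = sGO Φ z * oGO Φ s := fun a => by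
    rcases Int.units_eq_one_or (sqm hΦ a) with h | h
    · exact ⟨1, .one_left _, map_one _, (sqm_eq_one_iff hΦ).1 (by simpa)⟩
    · exact ⟨d, d3, d1, (sqm_eq_one_iff hΦ).1 (by simp [h, d2])⟩
  have a2 : ∀ a ∈ m.idg hκ hg hV, ∃ c, Commute c (m.sim (oGO Φ g)) ∧ a * c ∈ Inn _ := by
    rintro _ ⟨a, ha, rfl⟩
    obtain ⟨c, c1, c2, z, s, c3⟩ := a1 a
    have c4 : dickson hΦ hκ hg s = 1 := by
      rw [← gpar_mul hΦ hκ hg hV z, ← c3, map_mul, c2, mul_one]; exact ha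
    rcases Int.units_eq_one_or (spin hΦ hκ s) with h | h
    · exact ⟨_, c1.map _, by
        rw [← map_mul]
        exact (m.sim_mem_Inn_iff hρ).2 ⟨z, s, (mem_omega_iff hΦ hκ hg).2 ⟨c4, h⟩, c3⟩⟩
    · exact ⟨_, (c1.mul_left t3).map _, by
        rw [← map_mul]
        exact (m.sim_mem_Inn_iff hρ).2 ⟨z, s * t, (mem_omega_iff hΦ hκ hg).2
          ⟨by simp [c4, t1], by simp [h, t2]⟩, by rw [← mul_assoc, c3, map_mul, mul_assoc]⟩⟩
  refine ⟨fun y => ⟨conjUnder_iff (m.inn_le_idg hκ hρ hg hV) a2 y,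
    conjUnder_iff (m.pso_le_idg hκ hg hV) (fun a ha => ?_) y⟩,
    conjUnder_iff (by rintro _ ⟨a, rfl⟩; exact ⟨_, rfl⟩) ?_⟩
  · obtain ⟨c, c1, c2⟩ := a2 a ha
    exact ⟨c, c1, m.inn_le_pso hκ hρ hg c2⟩
  · rintro _ ⟨a, rfl⟩
    obtain ⟨c, c1, -, z, s, c3⟩ := a1 a
    exact ⟨_, c1.map _, s, by rw [← map_mul, c3, m.sim_sGO_mul]; rfl⟩

omit [Nontrivial V] in
theorem poAut_eq {ι : Type} [Fintype ι] [DecidableEq ι] {Q : QuadraticForm F (ι → F)}
    (hQ : (ofQuad Q).Nondeg) (h5 : 5 ≤ Fintype.card ι) :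
    poAut F Q = ((omegaModel Q hQ h5).sim.comp (oGO _)).range :=
  autSubgroupOf_eq fun _ => by
    constructor
    · rintro ⟨g, h1, h4⟩
      replace h1 := (mem_isometryGroup_iff_O Q g).1 h1
      exact ⟨⟨_, h1⟩, ((induced_omega_iff hQ h5 (θ := RingEquiv.refl F) (g := g)
          (O_le_GO h1)).1 h4).symm⟩
    · rintro ⟨⟨g, h1⟩, rfl⟩
      obtain ⟨g, rfl⟩ := glEquiv.surjective g
      exact ⟨g, (mem_isometryGroup_iff_O Q g).2 h1,
        (induced_omega_iff hQ h5 (θ := RingEquiv.refl F) (g := g) (O_le_GO h1)).2 rfl⟩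

omit [Finite F] [Nontrivial V] in
theorem odd_char_aux {p r : ℕ} [hp : Fact p.Prime] [CharP F p] (h : p ≠ 2) (hr : r.Prime)
    (h' : r ≠ p) : (2 : F) ≠ 0 ∧ (r : F) ≠ 0 :=
  ⟨fun e => h ((Nat.prime_dvd_prime_iff_eq hp.out Nat.prime_two).1
    ((CharP.cast_eq_zero_iff F p 2).1 (by exact_mod_cast e))),
    fun e => h' ((Nat.prime_dvd_prime_iff_eq hp.out hr).1 ((CharP.cast_eq_zero_iff F p r).1 e)).symm⟩

end H22
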