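import Cfsg.Agent.H17.Ind

/-! The unitriangular subgroup of `GL n` and its generic characters. -/

set_option autoImplicit false

namespace H22.Cu

open Matrix

variable {F : Type*} [Field F] {n : ℕ}

theorem tri_mul_apply {g h : Matrix (Fin n) (Fin n) F} (hg : g.BlockTriangular id)
    (hh : h.BlockTriangular id) (i : Fin n) : (g * h) i i = g i i * h i i := by
  rw [Matrix.mul_apply, Finset.sum_eq_single i _ (by simp)]
  intro k _ hk
  rcases lt_or_gt_of_ne hk with e | e
  · rw [hg e, zero_mul]
  · rw [hh e, mul_zero]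

/-- the upper unitriangular subgroup -/
def UT (n : ℕ) (F : Type*) [Field F] : Subgroup (GL (Fin n) F) where
  carrier := {g | g.1.BlockTriangular id ∧ ∀ i, g.1 i i = 1}
  one_mem' := ⟨blockTriangular_one, fun i => by simp⟩
  mul_mem' := fun {g h} hg hh => ⟨hg.1.mul hh.1, fun i => by
    rw [Units.val_mul, tri_mul_apply hg.1 hh.1, hg.2, hh.2, one_mul]⟩
  inv_mem' := fun {g} hg => by
    have := g.invertible
    have h : (g⁻¹).1.BlockTriangular id := by
      rw [Matrix.coe_units_inv]; exact blockTriangular_inv_of_blockTriangular hg.1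
    refine ⟨h, fun i => ?_⟩
    have := tri_mul_apply hg.1 h i
    rwa [← Units.val_mul, mul_inv_cancel, hg.2, one_mul, Units.val_one, one_apply_eq, eq_comm] at this

theorem mem_UT {g : GL (Fin n) F} : g ∈ UT n F ↔ g.1.BlockTriangular id ∧ ∀ i, g.1 i i = 1 := Iff.rfl

/-- the sum of the superdiagonal entries -/
def lam (g : Matrix (Fin n) (Fin n) F) : F := ∑ i : Fin n, ∑ j : Fin n, if j.val = i.val + 1 then g i j else 0

theorem lam_mul (u v : UT n F) : lam (u * v).1.1 = lam u.1.1 + lam v.1.1 := by
  simp only [lam, ← Finset.sum_add_distrib]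
  refine Finset.sum_congr rfl fun i _ => Finset.sum_congr rfl fun j _ => ?_
  split_ifs with h
  · have hij : i ≠ j := fun e => by rw [e] at h; omega
    rw [Subgroup.coe_mul, Units.val_mul, Matrix.mul_apply,
      Finset.sum_eq_add i j hij _ (by simp) (by simp), u.2.2, v.2.2, one_mul, mul_one, add_comm]
    rintro k _ ⟨h1, h2⟩
    rcases lt_or_gt_of_ne h1 with e | e
    · rw [u.2.1 e, zero_mul]
    · rw [v.2.1 (show j < k from lt_of_le_of_ne (by rw [Fin.le_def]; rw [Fin.lt_def] at e; omega)
        h2.symm), mul_zero]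
  · simp

theorem lam_one : lam (1 : Matrix (Fin n) (Fin n) F) = 0 := by
  refine Finset.sum_eq_zero fun i _ => Finset.sum_eq_zero fun j _ => ?_
  split_ifs with h
  · exact one_apply_ne fun e => by rw [e] at h; omega
  · rfl

/-- the generic linear character of the unitriangular group -/
def gen (ψ : AddChar F ℂ) (n : ℕ) : UT n F →* ℂ where
  toFun u := ψ (lam u.1.1)
  map_one' := by rw [OneMemClass.coe_one, Units.val_one, lam_one, ψ.map_zero_eq_one]
  map_mul' u v := by rw [lam_mul, ψ.map_add_eq_mul]

theorem gen_apply (ψ : AddChar F ℂ) (u : UT n F) : gen ψ n u = ψ (lam u.1.1) := rfl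

end H22.Cu
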