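import Cfsg.Agent.H22.CuA

/-! Invariant functions on automorphisms of finite vector spaces; parabolic induction. -/

set_option autoImplicit false

namespace H22.Cu

open Module
open scoped ComplexConjugate

universe u

section inst
variable {F : Type u} [Field F] {V W : Type u} [AddCommGroup V] [Module F V] [Finite V]
  [AddCommGroup W] [Module F W] [Finite W]

instance finHom : Finite (V →ₗ[F] W) := Finite.of_injective _ DFunLike.coe_injective
instance finQuo (S : Submodule F V) : Finite (V ⧸ S) := Finite.of_surjective _ S.mkQ_surjective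
noncomputable instance (priority := high) ftHom : Fintype (V →ₗ[F] W) := Fintype.ofFinite _
noncomputable instance (priority := high) ftUnit : Fintype (End F V)ˣ := Fintype.ofFinite _
noncomputable instance (priority := high) ftSub : Fintype (Submodule F V) :=
  @Fintype.ofFinite _ (Finite.of_injective _ SetLike.coe_injective)
end inst

/-- invariant functions -/
@[ext] structure Fam (F : Type u) [Field F] : Type (u + 1) where
  f : ∀ (V : Type u) [AddCommGroup V] [Module F V] [Finite V], End F V → ℂ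
  inv : ∀ {V W : Type u} [AddCommGroup V] [Module F V] [Finite V] [AddCommGroup W] [Module F W]
    [Finite W] (e : V ≃ₗ[F] W) {g : End F V} {h : End F W}, (∀ v, e (g v) = h (e v)) → f V g = f W h
  sing : ∀ {V : Type u} [AddCommGroup V] [Module F V] [Finite V] {g : End F V}, ¬ IsUnit g → f V g = 0

variable {F : Type u} [Field F] {V V' A B X Y X' Y' : Type u}
  [AddCommGroup V] [Module F V] [Finite V] [AddCommGroup V'] [Module F V'] [Finite V']
  [AddCommGroup A] [Module F A] [Finite A] [AddCommGroup B] [Module F B] [Finite B]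
  [AddCommGroup X] [Module F X] [Finite X] [AddCommGroup Y] [Module F Y] [Finite Y]
  [AddCommGroup X'] [Module F X'] [Finite X'] [AddCommGroup Y'] [Module F Y'] [Finite Y']
  {φ τ ρ σ : Fam F}

theorem unit_iff {g : End F V} : IsUnit g ↔ ∀ v, g v = 0 → v = 0 := by
  rw [LinearMap.isUnit_iff_ker_eq_bot, LinearMap.ker_eq_bot']

open Classical in
/-- the term of an invariant subspace -/
noncomputable def T (φ τ : Fam F) (g : End F V) (W : Submodule F V) : ℂ :=
  if h : W ≤ W.comap g then φ.f W (g.restrict h) * τ.f (V ⧸ W) (W.mapQ W g h) else 0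

theorem T_zero {g : End F V} {W : Submodule F V} (h : ¬ W ≤ W.comap g) : T φ τ g W = 0 := dif_neg h

theorem T_eq {g : End F V} {W : Submodule F V} (i : A →ₗ[F] V) (p : V →ₗ[F] B)
    (hi : Function.Injective i) (hp : Function.Surjective p) (hr : LinearMap.range i = W)
    (hk : LinearMap.ker p = W) {x : End F A} {y : End F B} (hx : ∀ a, g (i a) = i (x a))
    (hy : ∀ v, p (g v) = y (p v)) : T φ τ g W = φ.f A x * τ.f B y := by
  have h : W ≤ W.comap g := by
    rw [← hr]; rintro _ ⟨a, rfl⟩; exact ⟨x a, (hx a).symm⟩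
  rw [T, dif_pos h]
  congr 1
  · refine (φ.inv ((LinearEquiv.ofInjective i hi).trans (LinearEquiv.ofEq _ _ hr)) fun a => ?_).symm
    exact Subtype.ext (hx a).symm
  · refine τ.inv ((Submodule.quotEquivOfEq _ _ hk.symm).trans (p.quotKerEquivOfSurjective hp)) fun v => ?_
    obtain ⟨v, rfl⟩ := Submodule.Quotient.mk_surjective _ v
    exact hy v

theorem T_conj (e : V ≃ₗ[F] V') {g : End F V} {h : End F V'} (H : ∀ v, e (g v) = h (e v))
    (W : Submodule F V) : T φ τ h (W.map e.toLinearMap) = T φ τ g W := by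
  by_cases hW : W ≤ W.comap g
  · rw [T_eq (e.toLinearMap ∘ₗ W.subtype) (W.mkQ ∘ₗ e.symm.toLinearMap) (e.injective.comp W.injective_subtype)
      (W.mkQ_surjective.comp e.symm.surjective) (by rw [LinearMap.range_comp, W.range_subtype])
      (by rw [LinearMap.ker_comp, W.ker_mkQ, Submodule.map_equiv_eq_comap_symm])
      (x := g.restrict hW) (y := W.mapQ W g hW) (fun a => (H a).symm) fun v => ?_, T, dif_pos hW]
    obtain ⟨v, rfl⟩ := e.surjective v
    simp [← H]
  · rw [T_zero hW, T_zero fun h' => hW fun w hw => ?_]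
    obtain ⟨v, hv, e1⟩ := h' ⟨w, hw, rfl⟩
    rw [Submodule.mem_comap, e.injective ((H w).trans e1.symm)]; exact hv

theorem T_congr {g g' : End F V} {W : Submodule F V} (h1 : ∀ w ∈ W, g' w = g w)
    (h2 : W ≤ W.comap g → ∀ v, g' v - g v ∈ W) : T φ τ g' W = T φ τ g W := by
  by_cases hW : W ≤ W.comap g
  · rw [T_eq W.subtype W.mkQ W.injective_subtype W.mkQ_surjective W.range_subtype W.ker_mkQ
      (x := g.restrict hW) (y := W.mapQ W g hW) (fun a => h1 a a.2)
      fun v => (Submodule.Quotient.eq W).2 (h2 hW v), T, dif_pos hW]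
  · rw [T_zero hW, T_zero fun h' => hW fun w hw => ?_]
    rw [Submodule.mem_comap, ← h1 w hw]; exact h' hw

/-- parabolic induction -/
noncomputable def mul (φ τ : Fam F) : Fam F where
  f V _ _ _ g := ∑ W, T φ τ g W
  inv e _ _ H := Fintype.sum_equiv (Submodule.orderIsoMapComap e).toEquiv _ _ fun W => (T_conj e H W).symm
  sing {V} _ _ _ g hg := Finset.sum_eq_zero fun W _ => by
    rw [T]
    split_ifs with h
    · rw [mul_eq_zero]
      by_contra hn
      push Not at hn
      have h1 := unit_iff.1 (not_not.1 (mt φ.sing hn.1))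
      have h2 := unit_iff.1 (not_not.1 (mt τ.sing hn.2))
      refine hg (unit_iff.2 fun v hv => ?_)
      have := (Submodule.Quotient.mk_eq_zero W).1 (h2 (W.mkQ v) (by simp [hv]))
      exact congrArg Subtype.val (h1 ⟨v, this⟩ (Subtype.ext hv))
    · rfl

theorem mul_f (g : End F V) : (mul φ τ).f V g = ∑ W, T φ τ g W := rfl

/-- block triangular endomorphisms -/
def tri (x : End F X) (z : Y →ₗ[F] X) (y : End F Y) : End F (X × Y) :=
  (x.coprod z).prod (y ∘ₗ LinearMap.snd F X Y)

omit [Finite X] [Finite Y] in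
@[simp] theorem tri_apply (x : End F X) (z : Y →ₗ[F] X) (y : End F Y) (v : X × Y) :
    tri x z y v = (x v.1 + z v.2, y v.2) := rfl

theorem tri_unit {x : End F X} {z : Y →ₗ[F] X} {y : End F Y} :
    IsUnit (tri x z y) ↔ IsUnit x ∧ IsUnit y := by
  refine ⟨fun h => ⟨unit_iff.2 fun a ha => congrArg Prod.fst (unit_iff.1 h (a, 0) (by simp [ha])), ?_⟩,
    fun ⟨h1, h2⟩ => unit_iff.2 fun v hv => ?_⟩
  · rw [LinearMap.isUnit_iff_range_eq_top, LinearMap.range_eq_top] at h ⊢
    intro b
    obtain ⟨v, hv⟩ := h (0, b)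
    exact ⟨v.2, congrArg Prod.snd hv⟩
  · have e2 : v.2 = 0 := unit_iff.1 h2 _ (congrArg Prod.snd hv)
    have e1 := congrArg Prod.fst hv
    rw [tri_apply, e2, map_zero, add_zero] at e1
    exact Prod.ext (unit_iff.1 h1 _ e1) e2

/-- parabolic restriction -/
noncomputable def Res (φ : Fam F) (x : End F X) (y : End F Y) : ℂ :=
  (Nat.card (Y →ₗ[F] X) : ℂ)⁻¹ * ∑ z : Y →ₗ[F] X, φ.f _ (tri x z y)

theorem card_ne (α : Type*) [Finite α] [Nonempty α] : (Nat.card α : ℂ) ≠ 0 :=
  Nat.cast_ne_zero.2 Nat.card_pos.ne'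

theorem Res_inv (e : X ≃ₗ[F] X') (e' : Y ≃ₗ[F] Y') {x : End F X} {y : End F Y} {x' : End F X'}
    {y' : End F Y'} (hx : ∀ v, e (x v) = x' (e v)) (hy : ∀ v, e' (y v) = y' (e' v)) :
    Res φ x y = Res φ x' y' := by
  rw [Res, Res, Nat.card_congr (e'.arrowCongr e).toEquiv]
  congr 1
  refine Fintype.sum_equiv (e'.arrowCongr e).toEquiv _ _ fun z => φ.inv (e.prodCongr e') fun v => ?_
  simp [hx, hy]

theorem Res_sing {x : End F X} {y : End F Y} (h : ¬ (IsUnit x ∧ IsUnit y)) : Res φ x y = 0 := by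
  rw [Res, Finset.sum_eq_zero fun z _ => φ.sing (mt tri_unit.1 h), mul_zero]

/-- cuspidality -/
def Cusp (ρ : Fam F) : Prop :=
  ∀ (X Y : Type u) [AddCommGroup X] [Module F X] [Finite X] [AddCommGroup Y] [Module F Y] [Finite Y]
    [Nontrivial X] [Nontrivial Y] (x : End F X) (y : End F Y), Res ρ x y = 0

omit [Finite V] [Finite A] [Finite B] in
theorem exists_split (i : A →ₗ[F] V) (p : V →ₗ[F] B) (hi : Function.Injective i)
    (hp : Function.Surjective p) (hr : LinearMap.range i = LinearMap.ker p) :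
    ∃ e : (A × B) ≃ₗ[F] V, (∀ a, e (a, 0) = i a) ∧ ∀ v, p (e v) = v.2 := by
  obtain ⟨s, hs⟩ := p.exists_rightInverse_of_surjective (LinearMap.range_eq_top.2 hp)
  have hs' : ∀ b, p (s b) = b := fun b => congr($hs b)
  have h0 : ∀ a, p (i a) = 0 := fun a => LinearMap.mem_ker.1 (hr ▸ ⟨a, rfl⟩)
  refine ⟨LinearEquiv.ofBijective (i.coprod s) ⟨(injective_iff_map_eq_zero _).2 fun v hv => ?_, fun v => ?_⟩,
    fun a => show i a + s 0 = _ by simp, fun v => show p (i v.1 + s v.2) = _ by simp [h0, hs']⟩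
  · have e2 : v.2 = 0 := by simpa [h0, hs'] using congrArg p hv
    exact Prod.ext (hi (by simpa [e2] using hv)) e2
  · obtain ⟨a, ha⟩ : v - s (p v) ∈ LinearMap.range i := by rw [hr]; simp [hs']
    exact ⟨(a, p v), by simp [ha]⟩

omit [Finite X] [Finite Y] in
theorem eq_tri {g : End F (X × Y)} (h : ∀ a, (g (a, 0)).2 = 0) :
    g = tri (LinearMap.fst F X Y ∘ₗ g ∘ₗ LinearMap.inl F X Y) (LinearMap.fst F X Y ∘ₗ g ∘ₗ LinearMap.inr F X Y)
      (LinearMap.snd F X Y ∘ₗ g ∘ₗ LinearMap.inr F X Y) := by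
  refine LinearMap.ext fun v => ?_
  have : g v = g (v.1, 0) + g (0, v.2) := by rw [← map_add]; simp
  rw [this]
  ext <;> simp [h]

theorem sum_eq_Res (i : A →ₗ[F] V) (p : V →ₗ[F] B) (hi : Function.Injective i)
    (hp : Function.Surjective p) (hr : LinearMap.range i = LinearMap.ker p) {g : End F V}
    (hg : ∀ a, p (g (i a)) = 0) : ∃ (x : End F A) (y : End F B),
      ∑ u : B →ₗ[F] A, φ.f V (g + i ∘ₗ u ∘ₗ p) = Nat.card (B →ₗ[F] A) * Res φ x y := by
  obtain ⟨e, h1, h2⟩ := exists_split i p hi hp hr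
  obtain ⟨x, z, y, h⟩ : ∃ x z y, e.symm.conj g = tri x z y := ⟨_, _, _, eq_tri fun a => by
    rw [← h2]; simp [LinearEquiv.conj_apply, h1, hg]⟩
  refine ⟨x, y, ?_⟩
  rw [Res, mul_inv_cancel_left₀ (card_ne _)]
  refine Fintype.sum_equiv (Equiv.addLeft z) _ _ fun u => (φ.inv e fun v => ?_).symm
  have := congr(e ($h v))
  simp only [LinearEquiv.conj_apply_apply, LinearEquiv.symm_symm, LinearEquiv.apply_symm_apply] at this
  simp only [LinearMap.add_apply, this, LinearMap.comp_apply, h2, ← h1, ← map_add]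
  simp [add_assoc]

theorem Cusp.sum (h : Cusp φ) [Nontrivial A] [Nontrivial B] (i : A →ₗ[F] V) (p : V →ₗ[F] B)
    (hi : Function.Injective i) (hp : Function.Surjective p) (hr : LinearMap.range i = LinearMap.ker p)
    {g : End F V} (hg : ∀ a, p (g (i a)) = 0) : ∑ u : B →ₗ[F] A, φ.f V (g + i ∘ₗ u ∘ₗ p) = 0 := by
  obtain ⟨x, y, e⟩ := sum_eq_Res (φ := φ) i p hi hp hr hg
  rw [e, h, mul_zero]

theorem sum_zero_of_trans {α N : Type*} [Fintype α] [Fintype N] [Nonempty N] (s : N → α ≃ α)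
    (G : α → ℂ) (h : ∀ a, ∑ u, G (s u a) = 0) : ∑ a, G a = 0 := by
  have : ∑ u : N, ∑ a, G a = 0 := by
    rw [Finset.sum_congr rfl fun u _ => ((s u).sum_comp G).symm, Finset.sum_comm]
    exact Finset.sum_eq_zero fun a _ => h a
  simpa using this

end H22.Cu
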