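import Cfsg.Agent.H22.CuB

/-! The Heisenberg relation for cuspidal functions. -/

set_option autoImplicit false

namespace H22.Cu

open Module
open scoped ComplexConjugate

universe u

variable {F : Type u} [Field F] {V V' A B X Y X' Y' : Type u}
  [AddCommGroup V] [Module F V] [Finite V] [AddCommGroup V'] [Module F V'] [Finite V']
  [AddCommGroup A] [Module F A] [Finite A] [AddCommGroup B] [Module F B] [Finite B]
  [AddCommGroup X] [Module F X] [Finite X] [AddCommGroup Y] [Module F Y] [Finite Y]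
  [AddCommGroup X'] [Module F X'] [Finite X'] [AddCommGroup Y'] [Module F Y'] [Finite Y']
  {φ τ ρ σ : Fam F}

theorem card_hom : Nat.card (Y →ₗ[F] X) = Nat.card F ^ (finrank F Y * finrank F X) := by
  rw [Module.natCard_eq_pow_finrank (K := F), Module.finrank_linearMap]

theorem card_hom_split (S : Submodule F Y) :
    Nat.card (Y →ₗ[F] X) = Nat.card (S →ₗ[F] X) * Nat.card ((Y ⧸ S) →ₗ[F] X) := by
  rw [card_hom, card_hom, card_hom, ← pow_add, ← add_mul, add_comm, S.finrank_quotient_add_finrank]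

/-- the graph -/
def gr (S : Submodule F Y) (h : S →ₗ[F] X) : Submodule F (X × Y) := LinearMap.range (h.prod S.subtype)

omit [Finite X] [Finite Y] in
theorem mem_gr {S : Submodule F Y} {h : S →ₗ[F] X} {v : X × Y} :
    v ∈ gr S h ↔ ∃ hv : v.2 ∈ S, h ⟨v.2, hv⟩ = v.1 :=
  ⟨by rintro ⟨s, rfl⟩; exact ⟨s.2, rfl⟩, fun ⟨hv, e⟩ => ⟨⟨v.2, hv⟩, Prod.ext e rfl⟩⟩

open Classical in
theorem graph_sum (w : (Y →ₗ[F] X) → ℂ) (x : End F X) (y : End F Y) (S : Submodule F Y)
    (h : Y →ₗ[F] X) : ∑ z, w z * T φ τ (tri x z y) (gr S (h ∘ₗ S.subtype)) =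
      if hS : S ≤ S.comap y then φ.f S (y.restrict hS) * ∑ z : (Y ⧸ S) →ₗ[F] X,
        w (h ∘ₗ y - x ∘ₗ h + z ∘ₗ S.mkQ) * τ.f _ (tri x z (S.mapQ S y hS)) else 0 := by
  split_ifs with hS
  · rw [Finset.mul_sum]
    refine (Fintype.sum_of_injective (fun z : (Y ⧸ S) →ₗ[F] X => h ∘ₗ y - x ∘ₗ h + z ∘ₗ S.mkQ)
      (fun a b e => (LinearMap.cancel_right S.mkQ_surjective).1 (add_left_cancel e)) _ _
      (fun z hz => ?_) fun z => ?_).symm
    · rw [T_zero fun hW => hz ⟨S.liftQ (z - (h ∘ₗ y - x ∘ₗ h)) fun s hs => ?_, by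
        simp only [Submodule.liftQ_mkQ]; abel⟩, mul_zero]
      obtain ⟨_, e⟩ := mem_gr.1 (hW (mem_gr.2 ⟨hs, rfl⟩ : (h s, s) ∈ _))
      have e' : h (y s) = x (h s) + z s := e
      simp [e']
    · rw [T_eq (W := gr S (h ∘ₗ S.subtype)) ((h ∘ₗ S.subtype).prod S.subtype)
        ((LinearMap.fst F X Y - h ∘ₗ LinearMap.snd F X Y).prod (S.mkQ ∘ₗ LinearMap.snd F X Y))
        (fun a b e => Subtype.ext (congrArg Prod.snd e)) ?_ rfl ?_ (x := y.restrict hS)
        (y := tri x z (S.mapQ S y hS)) (fun a => ?_) fun v => ?_]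
      · ring
      · rintro ⟨a, b⟩
        obtain ⟨b, rfl⟩ := S.mkQ_surjective b
        exact ⟨(a + h b, b), by simp⟩
      · ext v
        simp [mem_gr, sub_eq_zero, and_comm, eq_comm (a := v.1)]
      · simp [(Submodule.Quotient.mk_eq_zero S).2 a.2]
      · simp; abel
  · refine Finset.sum_eq_zero fun z _ => ?_
    rw [T_zero fun hW => hS fun s hs => ?_, mul_zero]
    exact (mem_gr.1 (hW (mem_gr.2 ⟨hs, rfl⟩ : (h s, s) ∈ gr S (h ∘ₗ S.subtype)))).1

open Classical in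
theorem sum_disj (G : Submodule F (X × Y) → ℂ) :
    ∑ W with Disjoint W (LinearMap.range (LinearMap.inl F X Y)), G W =
      ∑ S : Submodule F Y, ∑ h : S →ₗ[F] X, G (gr S h) := by
  rw [← Finset.sum_fiberwise _ (fun W => W.map (LinearMap.snd F X Y))]
  refine Finset.sum_congr rfl fun S _ => (Finset.sum_bij (fun h _ => gr S h) (fun h _ => ?_)
    (fun h _ k _ e => ?_) (fun W hW => ?_) fun _ _ => rfl).symm
  · simp only [Finset.mem_filter, Finset.mem_univ, true_and]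
    refine ⟨Submodule.disjoint_def.2 ?_, ?_⟩
    · rintro _ hv ⟨a, rfl⟩
      obtain ⟨hv, e⟩ := mem_gr.1 hv
      have : a = 0 := e.symm.trans (map_zero h)
      simp [this]
    · rw [gr, ← LinearMap.range_comp, LinearMap.snd_prod, S.range_subtype]
  · refine LinearMap.ext fun s => ?_
    obtain ⟨_, e'⟩ := mem_gr.1 (e ▸ (mem_gr.2 ⟨s.2, rfl⟩ : (h s, s.1) ∈ gr S h))
    exact e'.symm
  · simp only [Finset.mem_filter, Finset.mem_univ, true_and] at hW
    obtain ⟨h1, rfl⟩ := hW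
    have hi : Function.Injective (LinearMap.snd F X Y ∘ₗ W.subtype) :=
      (injective_iff_map_eq_zero _).2 fun v hv => Subtype.ext
        (Submodule.disjoint_def.1 h1 _ v.2 ⟨v.1.1, Prod.ext rfl (Eq.symm hv)⟩)
    let e := (LinearEquiv.ofInjective _ hi).trans (LinearEquiv.ofEq _ (W.map (LinearMap.snd F X Y))
      (by rw [LinearMap.range_comp, W.range_subtype]))
    refine ⟨LinearMap.fst F X Y ∘ₗ W.subtype ∘ₗ e.symm.toLinearMap, Finset.mem_univ _, ?_⟩
    ext v
    constructor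
    · rintro ⟨s, rfl⟩
      obtain ⟨s, rfl⟩ := e.surjective s
      have : ((LinearMap.fst F X Y ∘ₗ W.subtype ∘ₗ e.symm.toLinearMap).prod
        (W.map (LinearMap.snd F X Y)).subtype) (e s) = s.1 := Prod.ext (by simp) rfl
      exact this ▸ s.2
    · intro hv
      exact ⟨e ⟨v, hv⟩, Prod.ext (by simp) rfl⟩

open Classical in
theorem T_add (g : End F V) (W : Submodule F V) (d : V →ₗ[F] W) : T φ τ (g + W.subtype ∘ₗ d) W =
    if h : W ≤ W.comap g then φ.f W (g.restrict h + d ∘ₗ W.subtype) * τ.f _ (W.mapQ W g h) else 0 := by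
  split_ifs with h
  · exact T_eq W.subtype W.mkQ W.injective_subtype W.mkQ_surjective W.range_subtype W.ker_mkQ
      (fun a => rfl) fun v => by simp [(Submodule.Quotient.mk_eq_zero W).2 (d v).2]
  · exact T_zero fun h' => h fun w hw => (W.add_mem_iff_left (d w).2).1 (h' hw)

theorem van0 (hρ : Cusp ρ) {W : Submodule F V} (p : V →ₗ[F] Y) (h1 : ¬ W ≤ LinearMap.ker p)
    (h2 : ¬ Disjoint W (LinearMap.ker p)) : ∃ (N : Type u) (_ : Fintype N) (_ : Nonempty N)
      (d : N → Y →ₗ[F] V), (∀ u y, p (d u y) = 0) ∧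
      ∀ g : End F V, (∀ v, p v = 0 → p (g v) = 0) → ∑ u, T ρ τ (g + d u ∘ₗ p) W = 0 := by
  let A : Submodule F W := LinearMap.ker (p ∘ₗ W.subtype)
  have : Nontrivial A := by
    rw [Submodule.disjoint_def] at h2
    push Not at h2
    obtain ⟨_, hv, ha, h0⟩ := h2
    exact ⟨⟨⟨_, hv⟩, ha⟩, 0, fun e => h0 (congrArg (fun t : A => t.1.1) e)⟩
  have : Nontrivial (W ⧸ A) := Submodule.Quotient.nontrivial_iff.2 fun e => h1 fun v hv =>
    (e ▸ Submodule.mem_top : (⟨v, hv⟩ : W) ∈ A)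
  obtain ⟨r, hr⟩ := (A.liftQ (p ∘ₗ W.subtype) le_rfl).exists_leftInverse_of_injective
    (Submodule.ker_liftQ_eq_bot _ _ _ le_rfl)
  refine ⟨(W ⧸ A) →ₗ[F] A, inferInstance, inferInstance, fun u => W.subtype ∘ₗ A.subtype ∘ₗ u ∘ₗ r,
    fun u y => (u (r y)).2, fun g hg => ?_⟩
  have e2 : ∀ u : (W ⧸ A) →ₗ[F] A, ((A.subtype ∘ₗ u ∘ₗ r) ∘ₗ p) ∘ₗ W.subtype =
      A.subtype ∘ₗ u ∘ₗ A.mkQ := fun u => LinearMap.ext fun v => congr(A.subtype (u ($hr (A.mkQ v))))
  simp only [LinearMap.comp_assoc p _ W.subtype, T_add, e2]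
  split_ifs with h
  · rw [← Finset.sum_mul, hρ.sum A.subtype A.mkQ A.injective_subtype A.mkQ_surjective (by simp)
      fun a => (Submodule.Quotient.mk_eq_zero A).2 (hg _ a.2), zero_mul]
  · simp

theorem van1 (hρ : Cusp ρ) (x : End F X) (y : End F Y) {W : Submodule F (X × Y)}
    (h1 : ¬ W ≤ LinearMap.range (LinearMap.inl F X Y))
    (h2 : ¬ Disjoint W (LinearMap.range (LinearMap.inl F X Y))) : ∑ z, T ρ τ (tri x z y) W = 0 := by
  rw [LinearMap.range_inl] at h1 h2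
  obtain ⟨N, _, _, d, hd, h⟩ := van0 (τ := τ) hρ (LinearMap.snd F X Y) h1 h2
  refine sum_zero_of_trans (fun u : N => Equiv.addRight (LinearMap.fst F X Y ∘ₗ d u)) _ fun z => ?_
  rw [← h (tri x z y) fun v hv => by rw [LinearMap.snd_apply] at hv; simp [hv]]
  refine Finset.sum_congr rfl fun u _ => ?_
  congr 1
  exact LinearMap.ext fun v => Prod.ext (by simp [add_assoc]) (by
    have : (d u v.2).2 = 0 := hd u v.2
    simp [this])

theorem van2 (hσ : Cusp σ) (z : Y →ₗ[F] X) (y : End F Y) {W : Submodule F (X × Y)}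
    (h1 : W ≤ LinearMap.range (LinearMap.inl F X Y)) (h3 : W ≠ LinearMap.range (LinearMap.inl F X Y))
    (h2 : ¬ Disjoint W (LinearMap.range (LinearMap.inl F X Y))) :
    ∑ x, conj (σ.f X x) * T ρ τ (tri x z y) W = 0 := by
  let A : Submodule F X := W.comap (LinearMap.inl F X Y)
  have : Nontrivial A := by
    rw [Submodule.disjoint_def] at h2
    push Not at h2
    obtain ⟨_, hv, ⟨a, rfl⟩, h0⟩ := h2
    exact ⟨⟨a, hv⟩, 0, fun e => h0 (by rw [show a = 0 from congrArg Subtype.val e, map_zero])⟩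
  have : Nontrivial (X ⧸ A) := Submodule.Quotient.nontrivial_iff.2 fun e => h3 (le_antisymm h1 (by
    rintro _ ⟨a, rfl⟩
    exact (e ▸ Submodule.mem_top : a ∈ A)))
  refine sum_zero_of_trans (fun u : (X ⧸ A) →ₗ[F] A =>
    Equiv.addRight (A.subtype ∘ₗ u ∘ₗ A.mkQ)) _ fun x => ?_
  have e : ∀ u : (X ⧸ A) →ₗ[F] A, T ρ τ (tri (Equiv.addRight (A.subtype ∘ₗ u ∘ₗ A.mkQ) x) z y) W =
      T ρ τ (tri x z y) W := fun u => T_congr (fun w hw => by
    obtain ⟨a, rfl⟩ := h1 hw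
    simp [(Submodule.Quotient.mk_eq_zero A).2 hw]) fun _ v => by
    convert (u (A.mkQ v.1)).2 using 0
    change _ ↔ ((u (A.mkQ v.1)).1, (0 : Y)) ∈ W
    congr! 1
    ext <;> simp
  simp only [e]
  rw [← Finset.sum_mul, ← map_sum]
  by_cases h : W ≤ W.comap (tri x z y)
  · erw [hσ.sum A.subtype A.mkQ A.injective_subtype A.mkQ_surjective (by simp)
      fun a => (Submodule.Quotient.mk_eq_zero A).2 (by simpa [A] using h a.2)]
    simp
  · rw [T_zero h, mul_zero]

/-- the adjoint of induction -/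
noncomputable def adj (σ : Fam F) (X : Type u) [AddCommGroup X] [Module F X] [Finite X] (τ : Fam F) :
    Fam F where
  f Y _ _ _ y := (Nat.card (End F X)ˣ : ℂ)⁻¹ * ∑ x, conj (σ.f X x) * Res τ x y
  inv e _ _ H := congrArg _ (Finset.sum_congr rfl fun x _ => by
    rw [Res_inv (LinearEquiv.refl F X) e (x' := x) (fun _ => rfl) H])
  sing h := by simp [Res_sing fun h' => h h'.2]

theorem adj_f (y : End F Y) :
    (adj σ X τ).f Y y = (Nat.card (End F X)ˣ : ℂ)⁻¹ * ∑ x, conj (σ.f X x) * Res τ x y := rfl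

theorem heis (hρ : Cusp ρ) (hσ : Cusp σ) [Nontrivial X] (y : End F Y) :
    (adj σ X (mul ρ τ)).f Y y = (Nat.card (End F X)ˣ : ℂ)⁻¹ * (∑ x, ρ.f X x * conj (σ.f X x)) * τ.f Y y +
      (mul ρ (adj σ X τ)).f Y y := by
  classical
  let Q : Submodule F (X × Y) → ℂ := fun W => ∑ x, conj (σ.f X x) * ∑ z, T ρ τ (tri x z y) W
  set X0 := LinearMap.range (LinearMap.inl F X Y)
  have c0 := card_ne (Y →ₗ[F] X)
  have e1 : ∑ x, conj (σ.f X x) * Res (mul ρ τ) x y = (Nat.card (Y →ₗ[F] X) : ℂ)⁻¹ * ∑ W, Q W := by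
    simp only [Q, Res, mul_f]
    rw [Finset.sum_comm, Finset.mul_sum]
    refine Finset.sum_congr rfl fun x _ => ?_
    rw [Finset.sum_comm, ← Finset.mul_sum]; ring
  have e2 : ∑ W with ¬ Disjoint W X0, Q W = Q X0 := by
    refine Finset.sum_eq_single_of_mem _ ?_ fun W hW h3 => ?_
    · obtain ⟨a, ha⟩ := exists_ne (0 : X)
      simp only [Finset.mem_filter, Finset.mem_univ, true_and]
      exact fun h => ha (congrArg Prod.fst (Submodule.disjoint_def.1 h (a, 0) ⟨a, rfl⟩ ⟨a, rfl⟩))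
    · simp only [Finset.mem_filter, Finset.mem_univ, true_and] at hW
      by_cases h1 : W ≤ X0
      · simp only [Q, Finset.mul_sum]
        rw [Finset.sum_comm]
        exact Finset.sum_eq_zero fun z _ => van2 hσ z y h1 h3 hW
      · exact Finset.sum_eq_zero fun x _ => by rw [van1 hρ x y h1 hW, mul_zero]
  have e3 : Q X0 = Nat.card (Y →ₗ[F] X) * ((∑ x, ρ.f X x * conj (σ.f X x)) * τ.f Y y) := by
    rw [Finset.sum_mul, Finset.mul_sum]
    refine Finset.sum_congr rfl fun x _ => ?_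
    rw [Finset.sum_congr rfl fun z _ => T_eq (LinearMap.inl F X Y) (LinearMap.snd F X Y)
      LinearMap.inl_injective LinearMap.snd_surjective rfl (LinearMap.range_inl F X Y).symm
      (x := x) (y := y) (fun a => by simp) fun v => rfl]
    simp [Nat.card_eq_fintype_card]; ring
  have e4 : ∀ S : Submodule F Y, (Nat.card (End F X)ˣ : ℂ)⁻¹ * ∑ h : S →ₗ[F] X, Q (gr S h) =
      Nat.card (Y →ₗ[F] X) * T ρ (adj σ X τ) y S := fun S => by
    have : ∀ (h : S →ₗ[F] X) x, ∑ z, T ρ τ (tri x z y) (gr S h) = if hS : S ≤ S.comap y then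
        ρ.f S (y.restrict hS) * ∑ z : (Y ⧸ S) →ₗ[F] X, τ.f _ (tri x z (S.mapQ S y hS)) else 0 := by
      intro h x
      obtain ⟨h, rfl⟩ := h.exists_extend
      simpa using graph_sum (φ := ρ) (τ := τ) (fun _ => 1) x y S h
    simp only [Q, this]
    rw [T]
    split_ifs with hS
    · have c1 := card_ne ((Y ⧸ S) →ₗ[F] X)
      rw [adj_f, card_hom_split S, Finset.sum_const, Finset.card_univ, ← Nat.card_eq_fintype_card,
        nsmul_eq_mul, Finset.mul_sum, Finset.mul_sum, Finset.mul_sum, Finset.mul_sum, Finset.mul_sum]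
      refine Finset.sum_congr rfl fun x _ => ?_
      rw [Res]; push_cast; field_simp
    · simp
  rw [adj_f, e1, ← Finset.sum_filter_add_sum_filter_not _ (fun W => Disjoint W X0), e2, e3, sum_disj,
    mul_f, mul_left_comm, mul_add, Finset.mul_sum, Finset.sum_congr rfl fun S _ => e4 S, ← Finset.mul_sum]
  field_simp
  ring

end H22.Cu
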