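import Cfsg.Agent.H22.CuC

/-! Frobenius reciprocity for parabolic induction. -/

set_option autoImplicit false

namespace H22.Cu

open Module Cfsg H17
open scoped ComplexConjugate

universe u

variable {F : Type u} [Field F] {V V' A B X Y X' Y' : Type u}
  [AddCommGroup V] [Module F V] [Finite V] [AddCommGroup V'] [Module F V'] [Finite V']
  [AddCommGroup A] [Module F A] [Finite A] [AddCommGroup B] [Module F B] [Finite B]
  [AddCommGroup X] [Module F X] [Finite X] [AddCommGroup Y] [Module F Y] [Finite Y]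
  [AddCommGroup X'] [Module F X'] [Finite X'] [AddCommGroup Y'] [Module F Y'] [Finite Y']
  {φ τ ρ σ χ : Fam F}

/-- the class function on a general linear group -/
def cl (φ : Fam F) (V : Type u) [AddCommGroup V] [Module F V] [Finite V] : (End F V)ˣ → ℂ :=
  fun g => φ.f V g

/-- a unit as an equivalence -/
noncomputable def ue (k : (End F V)ˣ) : V ≃ₗ[F] V := LinearMap.GeneralLinearGroup.toLinearEquiv k

omit [Finite V] in
@[simp] theorem ue_apply (k : (End F V)ˣ) (v : V) : ue k v = k.1 v := rfl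

omit [Finite V] in
@[simp] theorem u_inv (k : (End F V)ˣ) (v : V) : k.1 ((k⁻¹).1 v) = v := by
  rw [← End.mul_apply, ← Units.val_mul, mul_inv_cancel]; rfl

omit [Finite V] in
@[simp] theorem inv_u (k : (End F V)ˣ) (v : V) : (k⁻¹).1 (k.1 v) = v := u_inv k⁻¹ v

theorem cl_class (φ : Fam F) : IsClassFunction _ (cl φ V) := fun g h =>
  (φ.inv (ue h) fun v => by simp).symm

theorem sum_units (G : End F V → ℂ) (h : ∀ g, ¬ IsUnit g → G g = 0) :
    ∑ g, G g = ∑ g : (End F V)ˣ, G g :=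
  (Fintype.sum_of_injective Units.val Units.val_injective _ _ h fun _ => rfl).symm

/-- transport of units -/
noncomputable def cu (e : V ≃ₗ[F] V') : (End F V)ˣ ≃* (End F V')ˣ :=
  Units.mapEquiv e.conjRingEquiv.toMulEquiv

omit [Finite V] [Finite V'] in
theorem cu_apply (e : V ≃ₗ[F] V') (g : (End F V)ˣ) (v : V') : (cu e g).1 v = e (g.1 (e.symm v)) := rfl

theorem cl_cu (e : V ≃ₗ[F] V') : cl φ V = fun g => cl φ V' (cu e g) :=
  funext fun g => φ.inv e fun v => by simp [cu_apply]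

/-- the inner product -/
noncomputable def ip (φ χ : Fam F) (V : Type u) [AddCommGroup V] [Module F V] [Finite V] : ℂ :=
  classInner (cl φ V) (cl χ V)

theorem ip_congr (e : V ≃ₗ[F] V') : ip φ χ V = ip φ χ V' := by
  rw [ip, cl_cu e, cl_cu e, classInner_comp_equiv]; rfl

theorem ip_eq : ip φ χ V = (Nat.card (End F V)ˣ : ℂ)⁻¹ * ∑ g, φ.f V g * conj (χ.f V g) := by
  rw [sum_units _ fun g hg => by rw [φ.sing hg, zero_mul]]; rfl

open Classical in
/-- the family of a class function -/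
noncomputable def ofCl (c : (End F A)ˣ → ℂ) (hc : IsClassFunction _ c) : Fam F where
  f V _ _ _ g := if h : Nonempty (V ≃ₗ[F] A) ∧ IsUnit g then c (cu h.1.some h.2.unit) else 0
  inv {V W} _ _ _ _ _ _ e g h H := by
    have e1 : h = e.conjRingEquiv g := LinearMap.ext fun v => by
      obtain ⟨v, rfl⟩ := e.surjective v
      simp [← H]
    have e2 : (Nonempty (V ≃ₗ[F] A) ∧ IsUnit g) ↔ (Nonempty (W ≃ₗ[F] A) ∧ IsUnit h) :=
      and_congr ⟨fun ⟨a⟩ => ⟨e.symm.trans a⟩, fun ⟨a⟩ => ⟨e.trans a⟩⟩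
        (by rw [e1]; exact (MulEquiv.isUnit_map (f := e.conjRingEquiv)).symm)
    by_cases h1 : Nonempty (V ≃ₗ[F] A) ∧ IsUnit g
    · rw [dif_pos h1, dif_pos (e2.1 h1), ← hc _ (LinearMap.GeneralLinearGroup.ofLinearEquiv
        (h1.1.some.symm.trans (e.trans (e2.1 h1).1.some)))]
      congr 1
      refine Units.ext (LinearMap.ext fun v => ?_)
      change (e2.1 h1).1.some (e (h1.1.some.symm (h1.1.some (g (h1.1.some.symm (h1.1.some (e.symm
        ((e2.1 h1).1.some.symm v)))))))) = (e2.1 h1).1.some (h ((e2.1 h1).1.some.symm v))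
      simp [H]
    · rw [dif_neg h1, dif_neg (mt e2.2 h1)]
  sing h := dif_neg fun h' => h h'.2

theorem cl_ofCl {c : (End F A)ˣ → ℂ} (hc : IsClassFunction _ c) : cl (ofCl c hc) A = c := by
  funext g
  have h : Nonempty (A ≃ₗ[F] A) ∧ IsUnit g.1 := ⟨⟨.refl _ _⟩, g.isUnit⟩
  refine (dif_pos h).trans ?_
  rw [← hc g (LinearMap.GeneralLinearGroup.ofLinearEquiv h.1.some)]
  exact congrArg c (Units.ext (LinearMap.ext fun v => rfl))

/-- concentration in one degree -/
def Deg (φ : Fam F) (d : ℕ) : Prop :=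
  ∀ (V : Type u) [AddCommGroup V] [Module F V] [Finite V] (g : End F V), finrank F V ≠ d → φ.f V g = 0

theorem deg_ofCl {c : (End F A)ˣ → ℂ} (hc : IsClassFunction _ c) : Deg (ofCl c hc) (finrank F A) :=
  fun _ _ _ _ _ h => dif_neg fun ⟨⟨e⟩, _⟩ => h e.finrank_eq

theorem Deg.mul {a b : ℕ} (h : Deg φ a) (h' : Deg τ b) : Deg (mul φ τ) (a + b) := fun V _ _ _ g hV =>
  Finset.sum_eq_zero fun W _ => by
    rw [T]
    split_ifs with hW
    · by_cases e : finrank F W = a
      · rw [h' _ _ fun e' => hV (by rw [← W.finrank_quotient_add_finrank, e, e', add_comm]), mul_zero]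
      · rw [h _ _ e, zero_mul]
    · rfl

/-- families of characters -/
def IsCh (φ : Fam F) : Prop :=
  ∀ (V : Type u) [AddCommGroup V] [Module F V] [Finite V], IsCharacter _ (cl φ V)

theorem isCh_of (hd : Deg φ (finrank F A)) (h : IsCharacter _ (cl φ A)) : IsCh φ := fun V _ _ _ => by
  by_cases e : finrank F V = finrank F A
  · rw [cl_cu (LinearEquiv.ofFinrankEq V A e)]
    exact h.comp (cu _).toMonoidHom
  · rw [show cl φ V = 0 from funext fun g => hd V g e]; exact isCharacter_zero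

/-- the parabolic subgroup -/
def Par (F X Y : Type u) [Field F] [AddCommGroup X] [Module F X] [Finite X] [AddCommGroup Y]
    [Module F Y] [Finite Y] : Subgroup (End F (X × Y))ˣ where
  carrier := {g | ∀ a, (g.1 (a, 0)).2 = 0}
  one_mem' _ := rfl
  mul_mem' {g h} hg hh a := by
    rw [Units.val_mul, End.mul_apply, show h.1 (a, 0) = ((h.1 (a, 0)).1, 0) from Prod.ext rfl (hh a), hg]
  inv_mem' {g} hg a := by
    have h := g.isUnit
    rw [eq_tri hg, tri_unit, LinearMap.isUnit_iff_range_eq_top, LinearMap.range_eq_top] at h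
    obtain ⟨b, rfl⟩ := h.1 a
    have : g.1 (b, 0) = ((g.1 (b, 0)).1, 0) := Prod.ext rfl (hg b)
    change ((g⁻¹).1 ((g.1 (b, 0)).1, 0)).2 = 0
    rw [← this, inv_u]

/-- the first Levi component -/
def pi1 : Par F X Y →* End F X where
  toFun g := LinearMap.fst F X Y ∘ₗ g.1.1 ∘ₗ LinearMap.inl F X Y
  map_one' := rfl
  map_mul' g h := LinearMap.ext fun a =>
    congrArg (fun t => (g.1.1 t).1) (show h.1.1 (a, 0) = ((h.1.1 (a, 0)).1, 0) from Prod.ext rfl (h.2 a))

/-- the second Levi component -/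
def pi2 : Par F X Y →* End F Y where
  toFun g := LinearMap.snd F X Y ∘ₗ g.1.1 ∘ₗ LinearMap.inr F X Y
  map_one' := rfl
  map_mul' g h := LinearMap.ext fun a => (congrArg Prod.snd (LinearMap.congr_fun (eq_tri g.2) (h.1.1 (0, a))) :)

/-- coordinates on the parabolic subgroup -/
noncomputable def kap : ((End F X)ˣ × (End F Y)ˣ × (Y →ₗ[F] X)) ≃ Par F X Y :=
  Equiv.ofBijective (fun t => ⟨(tri_unit.2 ⟨t.1.isUnit, t.2.1.isUnit⟩ : IsUnit (tri _ t.2.2 _)).unit,
    fun a => map_zero t.2.1.1⟩) ⟨fun s t e => by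
    have e' : tri s.1.1 s.2.2 s.2.1.1 = tri t.1.1 t.2.2 t.2.1.1 := congrArg (fun p : Par F X Y => p.1.1) e
    refine Prod.ext (Units.ext (LinearMap.ext fun a => ?_)) (Prod.ext (Units.ext (LinearMap.ext fun a => ?_))
      (LinearMap.ext fun a => ?_))
    · simpa using congr(($e' (a, 0)).1)
    · simpa using congr(($e' (0, a)).2)
    · simpa using congr(($e' (0, a)).1), fun g => by
    have h := g.1.isUnit
    rw [eq_tri g.2, tri_unit] at h
    exact ⟨(h.1.unit, h.2.unit, _), Subtype.ext (Units.ext (eq_tri g.2).symm)⟩⟩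

theorem kap_val (t : (End F X)ˣ × (End F Y)ˣ × (Y →ₗ[F] X)) : (kap t).1.1 = tri t.1.1 t.2.2 t.2.1.1 := rfl

theorem mem_Par {k : (End F (X × Y))ˣ} : k ∈ Par F X Y ↔
    (LinearMap.range (LinearMap.inl F X Y)).map k.1 = LinearMap.range (LinearMap.inl F X Y) := by
  refine ⟨fun h => le_antisymm ?_ ?_, fun h a => ?_⟩
  · rintro _ ⟨_, ⟨a, rfl⟩, rfl⟩
    exact ⟨_, Prod.ext rfl (h a).symm⟩
  · rintro _ ⟨a, rfl⟩
    exact ⟨(k⁻¹).1 (a, 0), ⟨_, Prod.ext rfl (inv_mem h a).symm⟩, u_inv _ _⟩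
  · obtain ⟨b, e⟩ := h.le ⟨(a, 0), ⟨a, rfl⟩, rfl⟩
    rw [← e]; rfl

theorem cl_mul (hd : Deg φ (finrank F X)) : cl (mul φ τ) (X × Y) =
    indFun (Par F X Y) fun p => φ.f X (pi1 p) * τ.f Y (pi2 p) := by
  classical
  funext g
  set W0 := LinearMap.range (LinearMap.inl F X Y) with hW0
  have e1 : ∀ g : (End F (X × Y))ˣ, extendByZero (Par F X Y) (fun p => φ.f X (pi1 p) * τ.f Y (pi2 p)) g =
      T φ τ g.1 W0 := fun g => by
    rw [extendByZero_apply]
    split_ifs with h
    · exact (T_eq (LinearMap.inl F X Y) (LinearMap.snd F X Y) LinearMap.inl_injective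
        LinearMap.snd_surjective rfl (LinearMap.range_inl F X Y).symm (x := pi1 ⟨g, h⟩) (y := pi2 ⟨g, h⟩)
        (fun a => Prod.ext rfl (h a)) fun v => (congrArg Prod.snd (LinearMap.congr_fun (eq_tri h) v) :)).symm
    · refine (T_zero fun h' => h fun a => ?_).symm
      obtain ⟨b, e⟩ := h' ⟨a, rfl⟩
      exact (congrArg Prod.snd e).symm
  have e2 : ∀ k : (End F (X × Y))ˣ, T φ τ (k⁻¹ * g * k).1 W0 = T φ τ g.1 (W0.map k.1) := fun k =>
    (T_conj (ue k) (fun v => by simp) W0).symm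
  simp only [indFun_apply, e1, e2]
  rw [← Finset.sum_fiberwise' _ (fun k : (End F (X × Y))ˣ => W0.map k.1) (T φ τ g.1),
    eq_inv_mul_iff_mul_eq₀ (card_ne _), cl, mul_f, Finset.mul_sum]
  refine Finset.sum_congr rfl fun W _ => ?_
  rw [Finset.sum_const, nsmul_eq_mul]
  by_cases hW : finrank F W = finrank F X
  · congr 2
    have h2 : finrank F ((X × Y) ⧸ W) = finrank F Y := by
      have := W.finrank_quotient_add_finrank
      rw [finrank_prod] at this; omega
    obtain ⟨e, h1, -⟩ := exists_split (W.subtype ∘ₗ (LinearEquiv.ofFinrankEq X W hW.symm).toLinearMap)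
      ((LinearEquiv.ofFinrankEq _ Y h2).toLinearMap ∘ₗ W.mkQ)
      (W.injective_subtype.comp (LinearEquiv.injective _)) ((LinearEquiv.surjective _).comp W.mkQ_surjective)
      (by simp [LinearMap.range_comp, LinearMap.ker_comp])
    obtain ⟨k, rfl⟩ : ∃ k : (End F (X × Y))ˣ, W0.map k.1 = W := by
      refine ⟨LinearMap.GeneralLinearGroup.ofLinearEquiv e, ?_⟩
      rw [hW0, ← LinearMap.range_comp, show (LinearMap.GeneralLinearGroup.ofLinearEquiv e).1 ∘ₗ
        LinearMap.inl F X Y = _ from LinearMap.ext h1]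
      simp [LinearMap.range_comp]
    rw [← Fintype.card_subtype, ← Nat.card_eq_fintype_card]
    refine Nat.card_congr ((Equiv.mulLeft k).subtypeEquiv fun l => ?_)
    rw [mem_Par, Equiv.coe_mulLeft, Units.val_mul, End.mul_eq_comp, Submodule.map_comp]
    exact (Submodule.map_injective_of_injective (ue k).injective).eq_iff.symm
  · rw [T]
    split_ifs
    · rw [hd _ _ hW]; simp
    · simp

theorem IsCh.mul {d : ℕ} (h : IsCh φ) (h' : IsCh τ) (hd : Deg φ d) : IsCh (mul φ τ) := fun V _ _ _ => by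
  by_cases hW : ∃ W : Submodule F V, finrank F W = d
  · obtain ⟨W, rfl⟩ := hW
    obtain ⟨e, -⟩ := exists_split W.subtype W.mkQ W.injective_subtype W.mkQ_surjective (by simp)
    rw [cl_cu e.symm, cl_mul hd]
    have : IsCharacter (Par F W (V ⧸ W)) fun p => φ.f W (pi1 p) * τ.f (V ⧸ W) (pi2 p) :=
      ((h W).comp pi1.toHomUnits).mul ((h' (V ⧸ W)).comp pi2.toHomUnits)
    exact this.ind.comp (cu e.symm).toMonoidHom
  · rw [show cl (H22.Cu.mul φ τ) V = 0 from funext fun g => Finset.sum_eq_zero fun W _ => by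
      rw [T]
      split_ifs
      · rw [hd _ _ fun e => hW ⟨W, e⟩, zero_mul]
      · rfl]
    exact isCharacter_zero

theorem ip_mul (hd : Deg φ (finrank F X)) : ip χ (mul φ τ) (X × Y) = ip (adj φ X χ) τ Y := by
  classical
  rw [ip, cl_mul hd, frobenius_reciprocity' _ (cl_class χ), classInner_def, ← kap.sum_comp,
    ← Nat.card_congr kap, Nat.card_prod, Nat.card_prod, ip, classInner_def, Fintype.sum_prod_type_right]
  simp only [Fintype.sum_prod_type, cl, adj_f, Res, Finset.mul_sum, Finset.sum_mul]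
  refine Finset.sum_congr rfl fun y _ => ?_
  rw [sum_units _ fun x hx => by simp [φ.sing hx], Finset.sum_comm]
  refine Finset.sum_congr rfl fun x _ => Finset.sum_congr rfl fun z _ => ?_
  have e1 : pi1 (kap (x, y, z)) = x.1 := LinearMap.ext fun a => show x.1 a + z 0 = _ by simp
  have e2 : pi2 (kap (x, y, z)) = y.1 := rfl
  rw [e1, e2, kap_val, map_mul]
  push_cast
  ring

end H22.Cu
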