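import Cfsg.Agent.H22.CuD

/-! Cuspidal supports. -/

set_option autoImplicit false

namespace H22.Cu

open Module Cfsg H17
open scoped ComplexConjugate ComplexOrder

universe u

variable {F : Type u} [Field F] [Finite F] {V V' A B X Y X' Y' : Type u}
  [AddCommGroup V] [Module F V] [Finite V] [AddCommGroup V'] [Module F V'] [Finite V']
  [AddCommGroup A] [Module F A] [Finite A] [AddCommGroup B] [Module F B] [Finite B]
  [AddCommGroup X] [Module F X] [Finite X] [AddCommGroup Y] [Module F Y] [Finite Y]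
  [AddCommGroup X'] [Module F X'] [Finite X'] [AddCommGroup Y'] [Module F Y'] [Finite Y']
  {φ τ ρ σ χ : Fam F} {a b d : ℕ}

/-- irreducible characters in degree `d` -/
abbrev Ir (F : Type u) [Field F] (d : ℕ) : Type u := IrrCharacter (End F (Fin d → F))ˣ

/-- the family of an irreducible character -/
noncomputable def fam (α : Ir F d) : Fam F := ofCl α.1 α.2.isClassFunction

theorem cl_fam (α : Ir F d) : cl (fam α) (Fin d → F) = α.1 := cl_ofCl _

theorem deg_fam (α : Ir F d) : Deg (fam α) d := by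
  simpa [fam] using deg_ofCl α.2.isClassFunction

theorem deg_fam' (α : Ir F d) : Deg (fam α) (finrank F (Fin d → F)) := deg_ofCl _

theorem isCh_fam (α : Ir F d) : IsCh (fam α) :=
  isCh_of (deg_fam' α) (by rw [cl_fam]; exact α.2.isCharacter)

/-- coordinates -/
noncomputable def co (h : finrank F V = d) : V ≃ₗ[F] (Fin d → F) :=
  LinearEquiv.ofFinrankEq _ _ (by simpa using h)

theorem expand1 (φ : Fam F) (h : finrank F V = d) (g : End F V) :
    φ.f V g = ∑ α : Ir F d, ip φ (fam α) (Fin d → F) * (fam α).f V g := by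
  by_cases hg : IsUnit g
  · obtain ⟨g, rfl⟩ := hg
    have e : ∀ φ : Fam F, φ.f V g = cl φ _ (cu (co h) g) := fun φ => congrFun (cl_cu (co h)) g
    simp only [e, ip, cl_fam]
    exact (cl_class φ).apply_eq_sum _
  · simp [Fam.sing _ hg]

theorem ip_sum (φ χ : Fam F) (h : finrank F V = d) : ip φ χ V =
    ∑ α : Ir F d, ip φ (fam α) (Fin d → F) * conj (ip χ (fam α) (Fin d → F)) := by
  rw [ip_congr (co h)]
  simp only [ip, cl_fam]
  exact (cl_class φ).inner_eq_sum _

theorem res_expand (χ : Fam F) (ha : finrank F X = a) (hb : finrank F Y = b) (x : End F X) (y : End F Y) :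
    Res χ x y = ∑ α : Ir F a, ∑ β : Ir F b, ip χ (mul (fam α) (fam β)) ((Fin a → F) × (Fin b → F)) *
      ((fam α).f X x * (fam β).f Y y) := by
  let R : Fam F := ⟨fun X _ _ _ x => Res χ x y, fun e _ _ H => Res_inv e (.refl _ _) H fun _ => rfl,
    fun h => Res_sing fun h' => h h'.1⟩
  refine (expand1 R ha x).trans (Finset.sum_congr rfl fun α _ => ?_)
  have : ip R (fam α) (Fin a → F) = (adj (fam α) (Fin a → F) χ).f Y y := by
    rw [ip_eq, adj_f]; simp only [mul_comm (conj _)]; rfl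
  rw [this, expand1 _ hb, Finset.sum_mul]
  refine Finset.sum_congr rfl fun β _ => ?_
  rw [ip_mul (deg_fam' α)]; ring

omit [Finite F] in
theorem ip_nonneg (h : IsCh φ) (h' : IsCh χ) : 0 ≤ ip φ χ V := by
  obtain ⟨n, e⟩ := (h V).inner_nat (h' V)
  rw [ip, e]; exact Nat.cast_nonneg n

theorem fam_pos (α : Ir F d) (h : finrank F V = d) : 0 < (fam α).f V 1 := by
  obtain ⟨n, hn, e⟩ := α.2.exists_pos_one
  rw [(fam α).inv (co h) (h := 1) fun _ => rfl, show (fam α).f _ 1 = α.1 1 from congrFun (cl_fam α) 1, e]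
  exact Nat.cast_pos.2 hn

theorem ip_mul_nonneg (h : IsCh χ) (α : Ir F a) (β : Ir F b) : 0 ≤ ip χ (mul (fam α) (fam β)) V :=
  ip_nonneg h ((isCh_fam α).mul (isCh_fam β) (deg_fam α))

theorem res_nonneg (h : IsCh χ) : 0 ≤ Res χ (1 : End F X) (1 : End F Y) := by
  rw [res_expand χ rfl rfl]
  exact Finset.sum_nonneg fun α _ => Finset.sum_nonneg fun β _ =>
    mul_nonneg (ip_mul_nonneg h α β) (mul_pos (fam_pos α rfl) (fam_pos β rfl)).le

theorem res_zero (h : IsCh χ) (h0 : Res χ (1 : End F X) (1 : End F Y) = 0) (ha : finrank F X' = finrank F X)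
    (hb : finrank F Y' = finrank F Y) (x : End F X') (y : End F Y') : Res χ x y = 0 := by
  have p := fun (α : Ir F _) (β : Ir F _) => mul_pos (fam_pos (V := X) α rfl) (fam_pos (V := Y) β rfl)
  rw [res_expand χ rfl rfl, Finset.sum_eq_zero_iff_of_nonneg fun α _ => Finset.sum_nonneg fun β _ =>
    mul_nonneg (ip_mul_nonneg h α β) (p α β).le] at h0
  rw [res_expand χ ha hb]
  refine Finset.sum_eq_zero fun α _ => Finset.sum_eq_zero fun β _ => ?_
  rw [(mul_eq_zero.1 ((Finset.sum_eq_zero_iff_of_nonneg fun β _ => mul_nonneg (ip_mul_nonneg h α β)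
    (p α β).le).1 (h0 α (Finset.mem_univ _)) β (Finset.mem_univ _))).resolve_right (p α β).ne', zero_mul]

omit [Finite F] in
theorem res_trans (h0 : ∀ w : End F (B × Y), Res χ (1 : End F A) w = 0) :
    ∑ z : B →ₗ[F] A, Res χ (tri 1 z 1) (1 : End F Y) = 0 := by
  simp only [Res] at h0 ⊢
  rw [← Finset.mul_sum, ← Fintype.sum_prod_type', mul_eq_zero]
  right
  let e : ((B →ₗ[F] A) × (Y →ₗ[F] A × B)) ≃ ((Y →ₗ[F] B) × (B × Y →ₗ[F] A)) :=
    ⟨fun t => (LinearMap.snd F A B ∘ₗ t.2, t.1.coprod (LinearMap.fst F A B ∘ₗ t.2)),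
      fun t => (t.2 ∘ₗ LinearMap.inl F B Y, (t.2 ∘ₗ LinearMap.inr F B Y).prod t.1),
      fun t => by ext <;> simp, fun t => by ext <;> simp⟩
  rw [Fintype.sum_equiv e _ (fun t => χ.f _ (tri 1 t.2 (tri 1 t.1 1))) fun t =>
    χ.inv (LinearEquiv.prodAssoc F A B Y) fun v => by simp [e, add_assoc], Fintype.sum_prod_type]
  exact Finset.sum_eq_zero fun z _ => (mul_eq_zero.1 (h0 (tri 1 z 1))).resolve_left (inv_ne_zero (card_ne _))

theorem exists_supp (h : IsCh χ) {n : ℕ} (h1 : χ.f (Fin (n + 1) → F) 1 ≠ 0) : ∃ d e, d + e = n ∧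
    ∃ (α : Ir F (d + 1)) (β : Ir F e), Cusp (fam α) ∧
      ip χ (mul (fam α) (fam β)) ((Fin (d + 1) → F) × (Fin e → F)) ≠ 0 := by
  classical
  have ex : ∃ d, ∃ e, d + e = n ∧ Res χ (1 : End F (Fin (d + 1) → F)) (1 : End F (Fin e → F)) ≠ 0 := by
    refine ⟨n, 0, rfl, ?_⟩
    rw [Res, Finset.sum_congr rfl fun z _ => χ.inv (LinearEquiv.prodUnique (R := F)) (h := 1) fun v => by
      rw [tri_apply, Subsingleton.elim v.2 0, map_zero, add_zero]; rfl]
    simp [h1]
  obtain ⟨e, he, h2⟩ := Nat.find_spec ex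
  have hmin := fun m => Nat.find_min ex (m := m)
  generalize Nat.find ex = d at he h2 hmin
  obtain ⟨α, β, h3⟩ : ∃ (α : Ir F (d + 1)) (β : Ir F e),
      ip χ (mul (fam α) (fam β)) ((Fin (d + 1) → F) × (Fin e → F)) ≠ 0 := by
    by_contra hn
    push Not at hn
    exact h2 (by rw [res_expand χ (finrank_fin_fun F) (finrank_fin_fun F)]; simp [hn])
  refine ⟨d, e, he, α, β, fun X Y _ _ _ _ _ _ _ _ x y => ?_, h3⟩
  by_cases hd : finrank F (X × Y) = d + 1
  swap
  · rw [Res, Finset.sum_eq_zero fun z _ => deg_fam α _ _ hd, mul_zero]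
  refine res_zero (isCh_fam α) ?_ rfl rfl x y
  have hX : 0 < finrank F X := finrank_pos
  have hY : 0 < finrank F Y := finrank_pos
  have hd' := hd
  rw [finrank_prod] at hd'
  obtain ⟨m, hm⟩ : ∃ m, finrank F X = m + 1 := ⟨_, (Nat.succ_pred_eq_of_pos hX).symm⟩
  have h4 := res_trans (χ := χ) (A := X) (B := Y) (Y := Fin e → F) fun w =>
    res_zero h (not_not.1 fun h' => hmin m (by omega) ⟨finrank F Y + e, by omega, h'⟩)
      (by simp [hm]) (by simp) 1 w
  simp only [res_expand χ hd (finrank_fin_fun F)] at h4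
  rw [Finset.sum_comm] at h4
  have h5 : ∀ α' : Ir F (d + 1), ∑ z : Y →ₗ[F] X, ∑ β : Ir F e, ip χ (mul (fam α') (fam β))
      ((Fin (d + 1) → F) × (Fin e → F)) * ((fam α').f (X × Y) (tri 1 z 1) * (fam β).f (Fin e → F) 1) =
      ∑ β : Ir F e, ip χ (mul (fam α') (fam β)) ((Fin (d + 1) → F) × (Fin e → F)) *
        (Nat.card (Y →ₗ[F] X) * (fam β).f (Fin e → F) 1 * Res (fam α') (1 : End F X) (1 : End F Y)) := by
    intro α'
    rw [Finset.sum_comm]
    refine Finset.sum_congr rfl fun β _ => ?_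
    have := card_ne (Y →ₗ[F] X)
    rw [← Finset.mul_sum, ← Finset.sum_mul, Res]; field_simp
  have p : ∀ β : Ir F e, 0 < Nat.card (Y →ₗ[F] X) * (fam β).f (Fin e → F) 1 := fun β =>
    mul_pos (Nat.cast_pos.2 Nat.card_pos) (fam_pos β (finrank_fin_fun F))
  have q := fun (α' : Ir F (d + 1)) (β : Ir F e) (_ : β ∈ Finset.univ) => mul_nonneg (ip_mul_nonneg
    (V := (Fin (d + 1) → F) × (Fin e → F)) h α' β) (mul_nonneg (p β).le
      (res_nonneg (X := X) (Y := Y) (isCh_fam α')))
  simp only [h5] at h4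
  rw [Finset.sum_eq_zero_iff_of_nonneg fun α' _ => Finset.sum_nonneg (q α')] at h4
  have := (Finset.sum_eq_zero_iff_of_nonneg (q α)).1 (h4 α (Finset.mem_univ _)) β (Finset.mem_univ _)
  exact (mul_eq_zero.1 ((mul_eq_zero.1 this).resolve_left h3)).resolve_left (p β).ne'

/-- cuspidal irreducible characters of degree `d + 1` -/
abbrev Cu (F : Type u) [Field F] [Finite F] (d : ℕ) : Type u := {α : Ir F (d + 1) // Cusp (fam α)}

/-- the product of a list of cuspidal characters -/
noncomputable def prodL : List (Σ d, Cu F d) → Fam F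
  | [] => fam (⟨_, isIrr_one⟩ : Ir F 0)
  | s :: L => mul (fam s.2.1) (prodL L)

/-- total degree -/
def deg (L : List (Σ d, Cu F d)) : ℕ := (L.map fun s => s.1 + 1).sum

theorem deg_prodL : ∀ L : List (Σ d, Cu F d), Deg (prodL L) (deg L)
  | [] => deg_fam _
  | s :: L => (deg_fam s.2.1).mul (deg_prodL L)

theorem isCh_prodL : ∀ L : List (Σ d, Cu F d), IsCh (prodL L)
  | [] => isCh_fam _
  | s :: L => (isCh_fam _).mul (isCh_prodL L) (deg_fam s.2.1)

theorem deg_perm {L L' : List (Σ d, Cu F d)} (h : L.Perm L') : deg L = deg L' := (h.map _).sum_eq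

theorem exists_list (n : ℕ) : ∀ α : Ir F n, ∃ L, deg L = n ∧ ip (fam α) (prodL L) (Fin n → F) ≠ 0 := by
  induction n using Nat.strong_induction_on with
  | _ n ih =>
  intro α
  rcases n with _ | n
  · refine ⟨[], rfl, ?_⟩
    have : Subsingleton (End F (Fin 0 → F))ˣ := ⟨fun _ _ => Units.ext (LinearMap.ext fun _ => Subsingleton.elim _ _)⟩
    rw [prodL, ip, cl_fam, cl_fam, classInner_one_right, Fintype.sum_subsingleton _ 1]
    exact mul_ne_zero (inv_ne_zero (card_ne _)) α.2.one_ne_zero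
  obtain ⟨d, e, he, ρ, β, h1, h2⟩ := exists_supp (isCh_fam α) (fam_pos α (finrank_fin_fun F)).ne'
  obtain ⟨L, h3, h4⟩ := ih e (by omega) β
  refine ⟨⟨d, ρ, h1⟩ :: L, by change d + 1 + deg L = _; omega, ?_⟩
  rw [prodL, ← ip_congr (co (V := (Fin (d + 1) → F) × (Fin e → F)) (by simp; omega)), ip_mul (deg_fam' ρ),
    ip_sum _ _ (finrank_fin_fun F)]
  have q : ∀ γ : Ir F e, conj (ip (prodL L) (fam γ) (Fin e → F)) = ip (fam γ) (prodL L) (Fin e → F) :=
    fun γ => classInner_conj_symm _ _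
  simp only [q, ← ip_mul (deg_fam' ρ)]
  rw [Ne, Finset.sum_eq_zero_iff_of_nonneg fun γ _ => mul_nonneg (ip_mul_nonneg (isCh_fam α) ρ γ)
    (ip_nonneg (isCh_fam γ) (isCh_prodL L))]
  exact fun h => mul_ne_zero h2 h4 (h β (Finset.mem_univ _))

open Classical in
theorem ip_cu (s t : Σ d, Cu F d) :
    ip (fam s.2.1) (fam t.2.1) (Fin (t.1 + 1) → F) = if s = t then 1 else 0 := by
  obtain ⟨d, α⟩ := s
  obtain ⟨e, β⟩ := t
  by_cases h : d = e
  · subst h
    rw [ip, cl_fam, cl_fam, irr_inner]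
    simp [Subtype.ext_iff]
  · rw [if_neg fun e => h (congrArg Sigma.fst e), ip_eq,
      Finset.sum_eq_zero fun g _ => by rw [deg_fam α.1 _ g (by simpa using Ne.symm h), zero_mul], mul_zero]

open Classical in
/-- the derivation formula -/
def DerA (L : List (Σ d, Cu F d)) : Prop := ∀ (s : Σ d, Cu F d) (Y : Type u) [AddCommGroup Y]
  [Module F Y] [Finite Y] (y : End F Y), (adj (fam s.2.1) (Fin (s.1 + 1) → F) (prodL L)).f Y y =
    L.count s * (prodL (L.erase s)).f Y y

open Classical in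
theorem DerA.ip {L' : List (Σ d, Cu F d)} (h : DerA L') (s : Σ d, Cu F d) (L : List (Σ d, Cu F d))
    (hV : finrank F V = deg (s :: L)) : ip (prodL L') (prodL (s :: L)) V =
      L'.count s * ip (prodL (L'.erase s)) (prodL L) (Fin (deg L) → F) := by
  rw [prodL, ip_congr (LinearEquiv.ofFinrankEq V ((Fin (s.1 + 1) → F) × (Fin (deg L) → F))
    (by rw [finrank_prod, finrank_fin_fun, finrank_fin_fun]; exact hV)), ip_mul (deg_fam' _), ip_eq, ip_eq]
  simp only [h s, Finset.mul_sum]
  exact Finset.sum_congr rfl fun g _ => by ring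

theorem derA_perm (k : ℕ) : (∀ L : List (Σ d, Cu F d), L.length ≤ k → DerA L) ∧
    ∀ L L' : List (Σ d, Cu F d), L.length ≤ k → L.Perm L' → prodL L = prodL L' := by
  classical
  have A0 : DerA ([] : List (Σ d, Cu F d)) := fun s Y _ _ _ y => by
    rw [adj_f, Finset.sum_eq_zero fun x _ => by
      rw [Res, Finset.sum_eq_zero fun z _ => deg_prodL [] _ _ (by simp [deg]), mul_zero, mul_zero]]
    simp
  induction k with
  | zero => exact ⟨fun L h => by rw [List.length_eq_zero_iff.1 (Nat.le_zero.1 h)]; exact A0,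
      fun L L' h h' => by
        rw [List.length_eq_zero_iff.1 (Nat.le_zero.1 h)] at h' ⊢
        rw [h'.symm.eq_nil]⟩
  | succ k ih =>
  have hA : ∀ L : List (Σ d, Cu F d), L.length ≤ k + 1 → DerA L := by
    rintro (_ | ⟨t, L⟩) h
    · exact A0
    intro s Y _ _ _ y
    have hL : L.length ≤ k := by simpa using h
    have e : (mul (fam t.2.1) (adj (fam s.2.1) (Fin (s.1 + 1) → F) (prodL L))).f Y y =
        L.count s * (prodL (t :: L.erase s)).f Y y := by
      rw [prodL, mul_f, mul_f, Finset.mul_sum]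
      refine Finset.sum_congr rfl fun W _ => ?_
      rw [T, T]
      split_ifs
      · rw [ih.1 L hL s]; ring
      · simp
    rw [prodL, heis t.2.2 s.2.2, ← ip_eq, ip_cu, e]
    split_ifs with hts
    · subst hts
      rw [List.erase_cons_head, List.count_cons_self]
      by_cases hm : t ∈ L
      · rw [← ih.2 L _ hL (List.perm_cons_erase hm)]; push_cast; ring
      · simp [List.count_eq_zero_of_not_mem hm]
    · rw [List.erase_cons_tail (by simpa using hts), List.count_cons_of_ne hts]; simp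
  refine ⟨hA, fun L L' h h' => ?_⟩
  have H : ∀ (V : Type u) [AddCommGroup V] [Module F V] [Finite V], finrank F V = deg L →
      ∀ M, L.Perm M → ip (prodL L) (prodL M) V = ip (prodL L') (prodL M) V := by
    rintro V _ _ _ hV (_ | ⟨s, M⟩) hM
    · rw [hM.eq_nil, (h'.symm.trans hM).eq_nil]
    · rw [(hA L h).ip s M (hV.trans (deg_perm hM)), (hA L' (h'.length_eq ▸ h)).ip s M (hV.trans (deg_perm hM)),
        h'.count_eq, ih.2 (L.erase s) (L'.erase s) ?_ (h'.erase s)]
      rw [List.length_erase_of_mem (hM.symm.subset List.mem_cons_self)]; omega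
  ext V _ _ _ g
  by_cases hV : finrank F V = deg L
  · by_cases hg : IsUnit g
    · obtain ⟨g, rfl⟩ := hg
      have : cl (prodL L) V - cl (prodL L') V = 0 := by
        have h1 := H V hV L (.refl _)
        have h2 := H V hV L' h'
        rw [← classInner_self_eq_zero, classInner_sub_right, classInner_sub_left, classInner_sub_left]
        simp only [ip] at h1 h2
        rw [h1, h2]; ring
      exact sub_eq_zero.1 (congrFun this g)
    · rw [Fam.sing _ hg, Fam.sing _ hg]
  · rw [deg_prodL L V g hV, deg_prodL L' V g (deg_perm h' ▸ hV)]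

theorem prodL_perm {L L' : List (Σ d, Cu F d)} (h : L.Perm L') : prodL L = prodL L' :=
  (derA_perm _).2 L L' le_rfl h

theorem perm_of_ip : ∀ (L L' : List (Σ d, Cu F d)),
    ip (prodL L') (prodL L) (Fin (deg L) → F) ≠ 0 → L'.Perm L
  | [], [], _ => .refl _
  | [], t :: L', h => absurd (by
      rw [ip_eq, Finset.sum_eq_zero fun g _ => by
        rw [deg_prodL _ _ g (by rw [finrank_fin_fun]; change 0 ≠ t.1 + 1 + deg L'; omega), zero_mul], mul_zero]) h
  | s :: L, L', h => by
    classical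
    rw [((derA_perm _).1 L' le_rfl).ip s L (finrank_fin_fun F), mul_ne_zero_iff] at h
    exact (List.perm_cons_erase (List.count_pos_iff.1 (Nat.pos_of_ne_zero (Nat.cast_ne_zero.1 h.1)))).trans
      ((perm_of_ip L _ h.2).cons s)

end H22.Cu
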