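import Cfsg.Agent.H22.CuE

/-! Multiplicativity of the Whittaker dimension. -/

set_option autoImplicit false

namespace H22.Cu

open Module Cfsg H17 Matrix
open scoped ComplexConjugate ComplexOrder

universe u

variable {F : Type u} [Field F] {a b d n : ℕ}

noncomputable instance (priority := high) ftUT [Finite F] : Fintype (UT n F) := Fintype.ofFinite _

/-- a unitriangular element from a matrix -/
noncomputable def mkU (M : Matrix (Fin n) (Fin n) F) (h1 : M.BlockTriangular id) (h2 : ∀ i, M i i = 1) :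
    UT n F := ⟨GeneralLinearGroup.mkOfDetNeZero M (by rw [det_of_upperTriangular h1]; simp [h2]), h1, h2⟩

/-- the endomorphism -/
noncomputable def lin (u : UT n F) : End F (Fin n → F) := toLin' u.1.1

theorem lin_mul (u v : UT n F) (w : Fin n → F) : lin (u * v) w = lin u (lin v w) := by simp [lin]

/-- block matrices -/
noncomputable def blk (x : Matrix (Fin b) (Fin b) F) (z : Matrix (Fin b) (Fin a) F)
    (y : Matrix (Fin a) (Fin a) F) : Matrix (Fin (b + a)) (Fin (b + a)) F :=
  reindex finSumFinEquiv finSumFinEquiv (fromBlocks x z 0 y)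

section
variable (x : Matrix (Fin b) (Fin b) F) (z : Matrix (Fin b) (Fin a) F) (y : Matrix (Fin a) (Fin a) F)
@[simp] theorem blk11 (i j) : blk x z y (Fin.castAdd a i) (Fin.castAdd a j) = x i j := by simp [blk]
@[simp] theorem blk12 (i j) : blk x z y (Fin.castAdd a i) (Fin.natAdd b j) = z i j := by simp [blk]
@[simp] theorem blk21 (i j) : blk x z y (Fin.natAdd b i) (Fin.castAdd a j) = 0 := by simp [blk]
@[simp] theorem blk22 (i j) : blk x z y (Fin.natAdd b i) (Fin.natAdd b j) = y i j := by simp [blk]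
end

theorem fin_cases2 {P : Fin (b + a) → Fin (b + a) → Prop}
    (h1 : ∀ i j, P (Fin.castAdd a i) (Fin.castAdd a j)) (h2 : ∀ i j, P (Fin.castAdd a i) (Fin.natAdd b j))
    (h3 : ∀ i j, P (Fin.natAdd b i) (Fin.castAdd a j)) (h4 : ∀ i j, P (Fin.natAdd b i) (Fin.natAdd b j))
    (i j) : P i j :=
  Fin.addCases (fun i => Fin.addCases (h1 i) (h2 i) j) (fun i => Fin.addCases (h3 i) (h4 i) j) i

/-- block coordinates on the unitriangular group -/
noncomputable def bet : (UT b F × UT a F × ((Fin a → F) →ₗ[F] (Fin b → F))) ≃ UT (b + a) F where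
  toFun t := mkU (blk t.1.1.1 (LinearMap.toMatrix' t.2.2) t.2.1.1.1)
    (fin_cases2 (P := fun i j => j < i → blk _ _ _ i j = 0) (fun i j h => by rw [blk11]; exact t.1.2.1 h)
      (fun i j h => absurd h (by simp [Fin.lt_def]; omega)) (fun i j _ => by simp)
      fun i j h => by rw [blk22]; exact t.2.1.2.1 (Nat.lt_of_add_lt_add_left h))
    (Fin.addCases (fun i => by rw [blk11, t.1.2.2]) fun i => by rw [blk22, t.2.1.2.2])
  invFun u := (mkU (u.1.1.submatrix (Fin.castAdd a) (Fin.castAdd a)) (fun _ _ h => u.2.1 h) fun _ => u.2.2 _,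
    mkU (u.1.1.submatrix (Fin.natAdd b) (Fin.natAdd b))
      (fun _ _ h => u.2.1 (Nat.add_lt_add_left h b)) fun _ => u.2.2 _,
    toLin' (u.1.1.submatrix (Fin.castAdd a) (Fin.natAdd b)))
  left_inv t := Prod.ext (Subtype.ext (Units.ext (Matrix.ext fun i j => blk11 _ _ _ i j)))
    (Prod.ext (Subtype.ext (Units.ext (Matrix.ext fun i j => blk22 _ _ _ i j)))
      (LinearMap.toMatrix'.injective (by
        rw [LinearMap.toMatrix'_toLin']; exact Matrix.ext fun i j => blk12 _ _ _ i j)))
  right_inv u := Subtype.ext (Units.ext (Matrix.ext (fin_cases2 (fun i j => blk11 _ _ _ i j)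
    (fun i j => (blk12 _ _ _ i j).trans (by rw [LinearMap.toMatrix'_toLin']; rfl))
    (fun i j => (blk21 _ _ _ i j).trans (u.2.1 (by simp [Fin.lt_def]; omega)).symm)
    fun i j => blk22 _ _ _ i j)))

theorem bet_val (t : UT b F × UT a F × ((Fin a → F) →ₗ[F] (Fin b → F))) :
    (bet t).1.1 = blk t.1.1.1 (LinearMap.toMatrix' t.2.2) t.2.1.1.1 := rfl

/-- splitting coordinates -/
def sp (F : Type u) [Field F] (b a : ℕ) : (Fin (b + a) → F) ≃ₗ[F] (Fin b → F) × (Fin a → F) :=
  (LinearEquiv.funCongrLeft F F finSumFinEquiv).trans (LinearEquiv.sumArrowLequivProdArrow _ _ F F)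

@[simp] theorem sp_fst (v : Fin (b + a) → F) (i) : (sp F b a v).1 i = v (Fin.castAdd a i) := rfl
@[simp] theorem sp_snd (v : Fin (b + a) → F) (i) : (sp F b a v).2 i = v (Fin.natAdd b i) := rfl

theorem bet_lin (t : UT b F × UT a F × ((Fin a → F) →ₗ[F] (Fin b → F))) (v : Fin (b + a) → F) :
    sp F b a (lin (bet t) v) = tri (lin t.1) t.2.2 (lin t.2.1) (sp F b a v) := by
  obtain ⟨x, y, z⟩ := t
  obtain ⟨z, rfl⟩ := toLin'.surjective z
  ext i <;> simp [lin, bet_val, mulVec, dotProduct, Fin.sum_univ_add]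

/-- the last coordinate -/
def lst (F : Type u) [Field F] (b : ℕ) : (Fin b → F) →ₗ[F] F :=
  ∑ i : Fin b, if i.val + 1 = b then LinearMap.proj i else 0

theorem lst_apply (v : Fin b → F) : lst F b v = ∑ i : Fin b, if i.val + 1 = b then v i else 0 := by
  simp [lst, apply_ite (fun f : (Fin b → F) →ₗ[F] F => f v)]

/-- the first basis vector -/
def e0 (F : Type u) [Field F] (a : ℕ) : Fin a → F := fun j => if j.val = 0 then 1 else 0

theorem bet_lam (t : UT b F × UT a F × ((Fin a → F) →ₗ[F] (Fin b → F))) :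
    lam (bet t).1.1 = lam t.1.1.1 + lam t.2.1.1.1 + lst F b (t.2.2 (e0 F a)) := by
  obtain ⟨x, y, z⟩ := t
  obtain ⟨z, rfl⟩ := toLin'.surjective z
  simp only [lam, bet_val, Fin.sum_univ_add, Finset.sum_add_distrib, lst_apply, blk11, blk12, blk21, blk22,
    LinearMap.toMatrix'_toLin', Fin.val_castAdd, Fin.val_natAdd, add_assoc, Nat.add_left_cancel_iff,
    ite_self, Finset.sum_const_zero, zero_add]
  rw [add_comm (∑ i : Fin a, _)]
  congr 2
  refine Finset.sum_congr rfl fun i _ => ?_
  split_ifs with h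
  · simp only [toLin'_apply, mulVec, dotProduct, e0]
    refine Finset.sum_congr rfl fun j _ => ?_
    split_ifs <;> first | omega | simp
  · exact Finset.sum_eq_zero fun j _ => if_neg (by omega)

theorem lin_e0 (y : UT a F) : lin y (e0 F a) = e0 F a := by
  ext i
  rcases a with _ | a
  · exact i.elim0
  simp only [lin, toLin'_apply, mulVec, dotProduct, e0, Fin.sum_univ_succ]
  rcases Fin.eq_zero_or_eq_succ i with rfl | ⟨i, rfl⟩
  · simp [y.2.2]
  · simp [show y.1.1 i.succ 0 = 0 from y.2.1 (Fin.succ_pos i)]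

theorem lst_lin (x : UT b F) (v : Fin b → F) : lst F b (lin x v) = lst F b v := by
  simp only [lst_apply]
  refine Finset.sum_congr rfl fun i _ => ?_
  split_ifs with h
  · simp only [lin, toLin'_apply, mulVec, dotProduct]
    rw [Finset.sum_eq_single i (fun j _ hj => by
      rw [x.2.1 (show j < i by rw [Fin.lt_def]; rw [Ne, Fin.ext_iff] at hj; omega), zero_mul]) (by simp),
      x.2.2, one_mul]
  · rfl

/-- the standard flag -/
def Fl (F : Type u) [Field F] (n k : ℕ) : Submodule F (Fin n → F) where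
  carrier := {v | ∀ l : Fin n, k ≤ l.val → v l = 0}
  zero_mem' _ _ := rfl
  add_mem' hv hw l hl := by simp [hv l hl, hw l hl]
  smul_mem' c _ hv l hl := by simp [hv l hl]

theorem finrank_Fl {k : ℕ} (h : k ≤ n) : finrank F (Fl F n k) ≤ k := by
  have := LinearMap.finrank_le_finrank_of_injective
    (f := LinearMap.funLeft F F (Fin.castLE h) ∘ₗ (Fl F n k).subtype)
    ((injective_iff_map_eq_zero _).2 fun v hv => Subtype.ext (funext fun l => by
      by_cases hl : k ≤ l.val
      · exact v.2 l hl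
      · exact congrFun hv ⟨l, by omega⟩))
  simpa using this

theorem exists_gap {W : Submodule F (Fin n → F)} {v : Fin n → F} (hv : v ∈ W) (h0 : v ≠ 0)
    (hb : v ∈ Fl F n b) (h : finrank F W + b ≤ n) : ∃ i j : Fin n, j.val = i + 1 ∧
      Pi.single i 1 ∈ W ⊔ Fl F n i ∧ Pi.single j 1 ∉ W ⊔ Fl F n j := by
  classical
  by_contra hn
  push Not at hn
  obtain ⟨k, hk, hm⟩ := Finset.exists_max_image (Finset.univ.filter fun l => v l ≠ 0) id
    (by obtain ⟨l, hl⟩ := Function.ne_iff.1 h0; exact ⟨l, by simpa using hl⟩)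
  simp only [Finset.mem_filter, Finset.mem_univ, true_and, id] at hk hm
  have kb : k.val < b := not_le.1 fun e => hk (hb k e)
  have I : ∀ m (i : Fin n), i.val = k + m → Pi.single i 1 ∈ W ⊔ Fl F n i := fun m => by
    induction m with
    | zero =>
      intro i hi
      obtain rfl : i = k := Fin.ext hi
      refine Submodule.mem_sup.2 ⟨(v i)⁻¹ • v, W.smul_mem _ hv, Pi.single i 1 - (v i)⁻¹ • v, fun l hl => ?_,
        by simp⟩
      rcases eq_or_ne l i with rfl | e
      · simp [hk]
      · simp [e, not_not.1 (mt (hm l) (not_le.2 (lt_of_le_of_ne hl e.symm)))]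
    | succ m ih => exact fun j hj => hn ⟨k + m, by omega⟩ j hj (ih _ rfl)
  have J : ∀ m, k + m ≤ n → Fl F n (k + m) ≤ W ⊔ Fl F n k := fun m => by
    induction m with
    | zero => exact fun _ => le_sup_right
    | succ m ih =>
      intro hm w hw
      let i : Fin n := ⟨k + m, by omega⟩
      rw [← sub_add_cancel w (w i • Pi.single i 1)]
      refine add_mem (ih (by omega) fun l hl => ?_) (Submodule.smul_mem _ _
        (sup_le le_sup_left (ih (by omega)) (I m i rfl)))
      rcases eq_or_ne l i with rfl | e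
      · simp
      · simp [e, hw l (by rw [Ne, Fin.ext_iff] at e; simp only [i] at e; omega)]
  have K : W ⊔ Fl F n k = ⊤ := top_le_iff.1 fun w _ =>
    J (n - k) (by omega) fun l hl => absurd l.2 (by omega)
  have := Submodule.finrank_add_le_finrank_add_finrank W (Fl F n k)
  have h2 := finrank_Fl (F := F) k.2.le
  rw [K, finrank_top, finrank_fin_fun] at this
  omega

variable [Finite F] {ψ : AddChar F ℂ} {φ τ : Fam F}

theorem sum_psi (hψ : ψ ≠ 1) {t : F} (ht : t ≠ 0) : ∑ᶠ c, conj (ψ (c * t)) = 0 := by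
  cases nonempty_fintype F
  rw [finsum_eq_sum_of_fintype, ← map_sum, show ∑ c, ψ (c * t) = _ from Equiv.sum_comp (Equiv.mulRight₀ t ht) ψ,
    AddChar.sum_eq_zero_iff_ne_zero.2 hψ, map_zero]

theorem van3 (hψ : ψ ≠ 1) {W : Submodule F (Fin n → F)} {i j : Fin n} (hj : j.val = i + 1)
    (h1 : Pi.single i 1 ∈ W ⊔ Fl F n i) (h2 : Pi.single j 1 ∉ W ⊔ Fl F n j) :
    ∑ u : UT n F, T φ τ (lin u) W * conj (gen ψ n u) = 0 := by
  cases nonempty_fintype F
  obtain ⟨w, hw, f, hf, e⟩ := Submodule.mem_sup.1 h1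
  obtain ⟨l, l1, l2⟩ := Submodule.exists_dual_map_eq_bot_of_notMem h2 inferInstance
  have l3 : ∀ v ∈ W ⊔ Fl F n j, l v = 0 := fun v hv => (Submodule.mem_bot F).1 (l2 ▸ ⟨v, hv, rfl⟩)
  have l4 : ∀ s : Fin n, s.val ≤ i → l (Pi.single s 1) = 0 := fun s hs =>
    l3 _ (Submodule.mem_sup_right fun r hr => Pi.single_eq_of_ne (by rw [Ne, Fin.ext_iff]; omega) _)
  have w1 : w i = 1 := by simpa [hf i le_rfl] using congrFun e i
  have w2 : ∀ r : Fin n, i.val < r → w r = 0 := fun r hr => by
    simpa [hf r hr.le, (show r ≠ i by rw [Ne, Fin.ext_iff]; omega)] using congrFun e r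
  have w3 : ∀ r s : Fin n, s.val ≤ r → w r * l (Pi.single s 1) = 0 := fun r s h => by
    by_cases hs : s.val ≤ i
    · rw [l4 s hs, mul_zero]
    · rw [w2 r (by omega), zero_mul]
  let k : F → UT n F := fun c => mkU (1 + c • vecMulVec w fun s => l (Pi.single s 1))
    (fun r s h => by simp [vecMulVec_apply, w3 r s (le_of_lt h), show r ≠ s from (ne_of_lt h).symm])
    fun r => by simp [vecMulVec_apply, w3 r r le_rfl]
  have k0 : ∀ c, (k c).1.1 = 1 + c • vecMulVec w fun s => l (Pi.single s 1) := fun c => rfl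
  have k1 : ∀ c v, lin (k c) v = v + (c * l v) • w := fun c v => by
    have : (fun s => l (Pi.single s 1)) ⬝ᵥ v = l v := by
      conv_rhs => rw [← Finset.univ_sum_single v, map_sum]
      refine Finset.sum_congr rfl fun s _ => ?_
      rw [mul_comm, ← smul_eq_mul, ← map_smul, ← Pi.single_smul, smul_eq_mul, mul_one]
    simp [lin, k0, add_mulVec, smul_mulVec, vecMulVec_mulVec, this, smul_smul]
  have k2 : ∀ c, lam (k c).1.1 = c * l (Pi.single j 1) := fun c => by
    rw [k0, lam, Finset.sum_eq_single i (fun r _ hr => Finset.sum_eq_zero fun s _ => ?_) (by simp),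
      Finset.sum_eq_single j (fun s _ hs => if_neg (by rw [Ne, Fin.ext_iff] at hs; omega)) (by simp),
      if_pos hj]
    · simp [vecMulVec_apply, w1, (show i ≠ j by rw [Ne, Fin.ext_iff]; omega)]
    · split_ifs with h
      · rw [Ne, Fin.ext_iff] at hr
        have : w r * l (Pi.single s 1) = 0 := by
          by_cases hs : s.val ≤ i
          · rw [l4 s hs, mul_zero]
          · rw [w2 r (by omega), zero_mul]
        simp [vecMulVec_apply, this, (show r ≠ s by rw [Ne, Fin.ext_iff]; omega)]
      · rfl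
  refine sum_zero_of_trans (fun c => Equiv.mulRight (k c)) _ fun u => ?_
  have : ∀ c, T φ τ (lin (u * k c)) W = T φ τ (lin u) W := fun c => T_congr
    (fun v hv => by rw [lin_mul, k1, l3 v (Submodule.mem_sup_left hv)]; simp)
    fun hW v => by rw [lin_mul, k1, map_add, add_sub_cancel_left]; exact hW (W.smul_mem _ hw)
  simp only [Equiv.coe_mulRight, this, map_mul, gen_apply ψ (k _), k2]
  rw [← Finset.mul_sum, ← Finset.mul_sum, ← finsum_eq_sum_of_fintype, sum_psi hψ l1]; simp

/-- the Whittaker dimension -/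
noncomputable def del (ψ : AddChar F ℂ) (n : ℕ) (φ : Fam F) : ℂ :=
  classInner (fun u : UT n F => φ.f _ (lin u)) (gen ψ n)

theorem del_mul (hψ : ψ ≠ 1) (hd : Deg φ a) : del ψ (b + a) (mul φ τ) = del ψ a φ * del ψ b τ := by
  classical
  let S : Submodule F (Fin (b + a) → F) → ℂ := fun W => ∑ u, T φ τ (lin u) W * conj (gen ψ _ u)
  let e := sp F b a
  have e1 : ∑ u, (mul φ τ).f _ (lin u) * conj (gen ψ (b + a) u) =
      ∑ W : Submodule F ((Fin b → F) × (Fin a → F)), S (W.map e.symm.toLinearMap) := by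
    simp only [mul_f, Finset.sum_mul]
    rw [Finset.sum_comm]
    exact ((Submodule.orderIsoMapComap e.symm).toEquiv.sum_comp S).symm
  have e2 : ∑ W with ¬ Disjoint W (LinearMap.range (LinearMap.inl F (Fin b → F) (Fin a → F))),
      S (W.map e.symm.toLinearMap) = 0 := by
    refine Finset.sum_eq_zero fun W hW => ?_
    simp only [Finset.mem_filter, Finset.mem_univ, true_and, Submodule.disjoint_def, not_forall] at hW
    obtain ⟨_, hv, ⟨v, rfl⟩, h0⟩ := hW
    by_cases hr : finrank F (W.map e.symm.toLinearMap) = a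
    · obtain ⟨i, j, h1, h2, h3⟩ := exists_gap (b := b) (Submodule.mem_map_of_mem (f := e.symm.toLinearMap) hv)
        (fun h => h0 (e.symm.injective (h.trans (map_zero _).symm))) (fun l => by
          refine Fin.addCases (fun l hl => absurd l.2 (not_lt.2 hl)) (fun l _ => ?_) l
          exact congr(($(e.apply_symm_apply (v, 0))).2 l)) (by omega)
      exact van3 hψ h1 h2 h3
    · refine Finset.sum_eq_zero fun u _ => ?_
      rw [T]
      split_ifs
      · rw [hd _ _ hr]; simp
      · simp
  have e3 : ∀ (R : Submodule F (Fin a → F)) (h : R →ₗ[F] (Fin b → F)),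
      S ((gr R h).map e.symm.toLinearMap) = if R = ⊤ then (∑ y, φ.f _ (lin y) * conj (gen ψ a y)) *
        ∑ x, τ.f _ (lin x) * conj (gen ψ b x) else 0 := fun R h => by
    obtain ⟨h, rfl⟩ := h.exists_extend
    have : ∀ (x : UT b F) (y : UT a F), ∑ z, T φ τ (lin (bet (x, y, z)))
        ((gr R (h ∘ₗ R.subtype)).map e.symm.toLinearMap) * conj (gen ψ _ (bet (x, y, z))) =
        if R = ⊤ then φ.f _ (lin y) * conj (gen ψ a y) * (τ.f _ (lin x) * conj (gen ψ b x)) else 0 := by
      intro x y
      have h1 : ∀ z, T φ τ (lin (bet (x, y, z))) ((gr R (h ∘ₗ R.subtype)).map e.symm.toLinearMap) *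
          conj (gen ψ _ (bet (x, y, z))) = conj (gen ψ a y) * conj (gen ψ b x) *
          (conj (ψ (lst F b (z (e0 F a)))) * T φ τ (tri (lin x) z (lin y)) (gr R (h ∘ₗ R.subtype))) := by
        intro z
        rw [T_conj e.symm (g := tri (lin x) z (lin y)) fun v => by
          rw [LinearEquiv.symm_apply_eq, bet_lin, e.apply_symm_apply]]
        simp only [gen_apply, bet_lam, ψ.map_add_eq_mul, map_mul]; ring
      simp only [h1]
      rw [← Finset.mul_sum, graph_sum (fun z => conj (ψ (lst F b (z (e0 F a)))))]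
      split_ifs with h2 h3 h3
      · subst h3
        rw [Fintype.sum_subsingleton _ 0, φ.inv Submodule.topEquiv (h := lin y) fun _ => rfl,
          τ.inv (LinearEquiv.prodUnique (R := F)) (h := lin x) fun v => by simp]
        simp [lin_e0, lst_lin]; ring
      · rw [hd _ _ fun e => h3 (Submodule.eq_top_of_finrank_eq (by simpa using e))]; simp
      · exact absurd (h3 ▸ le_top) h2
      · simp
    simp only [S]
    rw [← bet.sum_comp, Fintype.sum_prod_type_right]
    simp only [Fintype.sum_prod_type]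
    rw [Finset.sum_congr rfl fun y _ => Finset.sum_comm]
    simp only [this]
    split_ifs
    · rw [Finset.sum_mul_sum]
    · simp
  have c1 := card_ne ((Fin a → F) →ₗ[F] (Fin b → F))
  have c2 := card_ne (UT a F)
  have c3 := card_ne (UT b F)
  rw [del, del, del, classInner_def, classInner_def, classInner_def, e1,
    ← Finset.sum_filter_add_sum_filter_not _
      (fun W => Disjoint W (LinearMap.range (LinearMap.inl F (Fin b → F) (Fin a → F)))), e2, sum_disj,
    ← Nat.card_congr bet, Nat.card_prod, Nat.card_prod]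
  simp only [e3]
  rw [Finset.sum_eq_single ⊤ (fun R _ h => by simp [h]) (by simp), Finset.sum_const, Finset.card_univ,
    ← Nat.card_eq_fintype_card, Nat.card_congr (Submodule.topEquiv.arrowCongr (.refl _ _)).toEquiv]
  simp only [if_true, nsmul_eq_mul]
  push_cast
  field_simp
  ring

end H22.Cu
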