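import Cfsg.Agent.H22.CuF
import Mathlib.LinearAlgebra.Matrix.GeneralLinearGroup.Card

/-! Degrees of cuspidal characters and the norm of the Gelfand-Graev character. -/

set_option autoImplicit false

namespace H22.Cu

open Module Cfsg H17 Matrix
open scoped ComplexConjugate ComplexOrder

universe u

variable {F : Type u} [Field F] [Finite F] {a b d n m k : ℕ} {ψ : AddChar F ℂ} {φ τ : Fam F}
  {X X' : Type u} [AddCommGroup X] [Module F X] [Finite X] [AddCommGroup X'] [Module F X'] [Finite X']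

/-- the partial Whittaker averages -/
noncomputable def wh (ψ : AddChar F ℂ) (φ : Fam F) (l : X →ₗ[F] F) (k : ℕ) : ℂ :=
  (Nat.card (UT k F) : ℂ)⁻¹ * ∑ y : UT k F, conj (gen ψ k y) * ((Nat.card ((Fin k → F) →ₗ[F] X) : ℂ)⁻¹ *
    ∑ z : (Fin k → F) →ₗ[F] X, conj (ψ (l (z (e0 F k)))) * φ.f _ (tri 1 z (lin y)))

theorem wh_inv (e : X ≃ₗ[F] X') {l : X →ₗ[F] F} {l' : X' →ₗ[F] F} (h : ∀ v, l' (e v) = l v) :
    wh ψ φ l k = wh ψ φ l' k := by
  rw [wh, wh, Nat.card_congr ((LinearEquiv.refl F (Fin k → F)).arrowCongr e).toEquiv]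
  congr 1
  refine Finset.sum_congr rfl fun y _ => ?_
  congr 2
  refine Fintype.sum_equiv ((LinearEquiv.refl F (Fin k → F)).arrowCongr e).toEquiv _ _ fun z => ?_
  rw [← h, φ.inv (e.prodCongr (.refl _ _)) (h := tri 1 (((LinearEquiv.refl F (Fin k → F)).arrowCongr e) z)
    (lin y)) fun v => by simp]
  rfl

theorem wh_zero : wh ψ φ (0 : X →ₗ[F] F) k =
    (Nat.card (UT k F) : ℂ)⁻¹ * ∑ y : UT k F, conj (gen ψ k y) * Res φ (1 : End F X) (lin y) := by
  simp [wh, Res]

omit [Finite F] in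
theorem sub_UT (h : k ≤ 1) : Subsingleton (UT k F) := ⟨fun u v => Subtype.ext (Units.ext (Matrix.ext
  fun i j => by rw [show i = j from Fin.ext (by omega), u.2.2, v.2.2]))⟩

omit [Finite F] in
theorem lin_one : lin (1 : UT k F) = 1 := by simp [lin, End.one_eq_id]

theorem wh_0 (l : X →ₗ[F] F) : wh ψ φ l 0 = φ.f X 1 := by
  have := sub_UT (F := F) (Nat.zero_le 1)
  have : Unique ((Fin 0 → F) →ₗ[F] X) := uniqueOfSubsingleton 0
  have : Unique (UT 0 F) := uniqueOfSubsingleton 1
  rw [wh, Fintype.sum_subsingleton _ 1, Fintype.sum_subsingleton _ 0,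
    φ.inv (LinearEquiv.prodUnique (R := F)) (h := 1) fun v => by simp]
  simp

theorem wh_del : wh ψ φ (0 : (Fin 0 → F) →ₗ[F] F) k = del ψ k φ := by
  have : Unique ((Fin k → F) →ₗ[F] (Fin 0 → F)) := uniqueOfSubsingleton 0
  rw [wh, del, classInner_def]
  congr 1
  refine Finset.sum_congr rfl fun y _ => ?_
  rw [Fintype.sum_subsingleton _ 0, φ.inv (LinearEquiv.uniqueProd (R := F)) (h := lin y) fun v => by simp]
  simp [mul_comm]

theorem sum_dual (hψ : ψ ≠ 1) (v : X) [Decidable (v = 0)] : ∑ l : X →ₗ[F] F, conj (ψ (l v)) =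
    if v = 0 then (Nat.card (X →ₗ[F] F) : ℂ) else 0 := by
  split_ifs with h
  · simp [h]
  · cases nonempty_fintype F
    obtain ⟨f, hf⟩ := not_forall.1 (mt (Module.forall_dual_apply_eq_zero_iff F v).1 h)
    refine sum_zero_of_trans (fun c : F => Equiv.addRight (c • f)) _ fun l => ?_
    simp only [Equiv.coe_addRight, LinearMap.add_apply, ψ.map_add_eq_mul, map_mul, LinearMap.smul_apply,
      smul_eq_mul]
    rw [← Finset.mul_sum, ← finsum_eq_sum_of_fintype, sum_psi hψ hf, mul_zero]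

theorem card_UT : Nat.card (UT (1 + k) F) = Nat.card (UT k F) * Nat.card F ^ k := by
  have := sub_UT (F := F) le_rfl
  have : Unique (UT 1 F) := uniqueOfSubsingleton 1
  rw [← Nat.card_congr bet, Nat.card_prod, Nat.card_prod, card_hom]; simp

theorem wh_sum (hψ : ψ ≠ 1) : ∑ l : X →ₗ[F] F, wh ψ φ l (1 + k) =
    wh ψ φ (lst F 1 ∘ₗ LinearMap.snd F X (Fin 1 → F)) k := by
  classical
  have := sub_UT (F := F) le_rfl
  have h1 : ∀ y : UT (1 + k) F, ∑ l : X →ₗ[F] F, ∑ z : (Fin (1 + k) → F) →ₗ[F] X,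
      conj (ψ (l (z (e0 F _)))) * φ.f _ (tri 1 z (lin y)) = Nat.card (X →ₗ[F] F) *
        ∑ z : (Fin k → F) →ₗ[F] X, φ.f _ (tri 1 (z ∘ₗ LinearMap.snd F _ _ ∘ₗ (sp F 1 k).toLinearMap) (lin y)) := by
    intro y
    rw [Finset.sum_comm, Finset.mul_sum]
    simp only [← Finset.sum_mul, sum_dual hψ]
    refine (Fintype.sum_of_injective (fun z : (Fin k → F) →ₗ[F] X =>
      z ∘ₗ LinearMap.snd F _ _ ∘ₗ (sp F 1 k).toLinearMap) (fun z w e => LinearMap.ext fun v => by
        simpa using LinearMap.congr_fun e ((sp F 1 k).symm (0, v))) _ _ (fun z hz => ?_) fun z => ?_).symm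
    · rw [if_neg fun h => hz ⟨z ∘ₗ (sp F 1 k).symm.toLinearMap ∘ₗ LinearMap.inr F _ _,
        LinearMap.ext fun v => ?_⟩, zero_mul]
      have : v = (sp F 1 k).symm (0, (sp F 1 k v).2) + v 0 • e0 F _ := (sp F 1 k).injective (by
        rw [map_add, LinearEquiv.apply_symm_apply]
        ext i
        · rw [Subsingleton.elim i 0]; simp [e0]; rfl
        · simp [e0])
      conv_rhs => rw [this, map_add, map_smul, h]
      simp
    · rw [if_pos]
      have : (sp F 1 k (e0 F _)).2 = 0 := by ext i; simp [e0]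
      simp [this]
  have h2 : ∀ (y : UT k F), ∑ z : (Fin k → F) →ₗ[F] X × (Fin 1 → F),
      conj (ψ ((lst F 1 ∘ₗ LinearMap.snd F X (Fin 1 → F)) (z (e0 F k)))) * φ.f _ (tri 1 z (lin y)) =
      ∑ r : (Fin k → F) →ₗ[F] (Fin 1 → F), conj (ψ (lst F 1 (r (e0 F k)))) * ∑ z : (Fin k → F) →ₗ[F] X,
        φ.f _ (tri 1 (z ∘ₗ LinearMap.snd F _ _ ∘ₗ (sp F 1 k).toLinearMap) (lin (bet (1, y, r)))) := by
    intro y
    rw [← (LinearMap.prodEquiv F).toEquiv.sum_comp, Fintype.sum_prod_type_right]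
    refine Finset.sum_congr rfl fun r _ => ?_
    rw [Finset.mul_sum]
    refine Finset.sum_congr rfl fun z _ => ?_
    congr 1
    refine (φ.inv (((LinearEquiv.refl F X).prodCongr (sp F 1 k)).trans (LinearEquiv.prodAssoc F _ _ _).symm)
      fun v => ?_).symm
    simp [bet_lin, lin_one]; rfl
  have c1 := card_ne F
  have c2 := card_ne (UT k F)
  simp only [wh]
  rw [← Finset.mul_sum, Finset.sum_comm]
  simp only [← Finset.mul_sum, h1, h2]
  rw [← bet.sum_comp, Fintype.sum_prod_type, Fintype.sum_subsingleton _ 1, Fintype.sum_prod_type, card_UT,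
    card_hom, card_hom, card_hom, Finset.mul_sum, Finset.mul_sum]
  refine Finset.sum_congr rfl fun y _ => ?_
  simp only [Finset.mul_sum]
  refine Finset.sum_congr rfl fun r _ => Finset.sum_congr rfl fun z _ => ?_
  simp only [gen_apply, bet_lam, ψ.map_add_eq_mul, map_mul, OneMemClass.coe_one, Units.val_one, lam_one,
    ψ.map_zero_eq_one, map_one, finrank_prod, finrank_fin_fun, finrank_self]
  push_cast
  field_simp
  ring

/-- the averages for a non-zero functional -/
noncomputable def aa (ψ : AddChar F ℂ) (φ : Fam F) (m k : ℕ) : ℂ :=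
  wh ψ φ (lst F 1 ∘ₗ LinearMap.snd F (Fin m → F) (Fin 1 → F)) k

/-- the averages for the zero functional -/
noncomputable def bb (ψ : AddChar F ℂ) (φ : Fam F) (m k : ℕ) : ℂ := wh ψ φ (0 : (Fin m → F) →ₗ[F] F) k

theorem wh_ne {l : (Fin (m + 1) → F) →ₗ[F] F} (hl : l ≠ 0) : wh ψ φ l k = aa ψ φ m k := by
  have h : finrank F (LinearMap.ker l) = m := by
    have := Module.Dual.finrank_ker_add_one_of_ne_zero hl
    simpa using this
  obtain ⟨e, -, h2⟩ := exists_split ((LinearMap.ker l).subtype ∘ₗ (co h).symm.toLinearMap)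
    (LinearMap.pi fun _ : Fin 1 => l) ((Submodule.injective_subtype _).comp (co h).symm.injective)
    (fun v => by
      obtain ⟨w, hw⟩ := LinearMap.surjective_iff_ne_zero.2 hl (v 0)
      exact ⟨w, funext fun i => by rw [Subsingleton.elim i 0]; exact hw⟩)
    (by simp [LinearMap.range_comp, LinearMap.ker_pi])
  exact (wh_inv e fun v => by simp [lst_apply, ← h2]).symm

theorem aa_zero (hψ : ψ ≠ 1) : aa ψ φ 0 k = del ψ (1 + k) φ := by
  rw [aa, ← wh_sum hψ, Fintype.sum_subsingleton _ 0, wh_del]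

theorem aa_succ (hψ : ψ ≠ 1) : aa ψ φ (m + 1) k =
    bb ψ φ (m + 1) (1 + k) + (Nat.card F ^ (m + 1) - 1) * aa ψ φ m (1 + k) := by
  classical
  rw [aa, ← wh_sum hψ, ← Finset.add_sum_erase _ _ (Finset.mem_univ 0),
    Finset.sum_congr rfl fun l hl => wh_ne (Finset.ne_of_mem_erase hl), Finset.sum_const,
    Finset.card_erase_of_mem (Finset.mem_univ _), Finset.card_univ, ← Nat.card_eq_fintype_card, card_hom,
    nsmul_eq_mul, Nat.cast_sub (Nat.one_le_pow _ _ Nat.card_pos)]
  simp [bb]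

theorem aa_0 : aa ψ φ m 0 = φ.f (Fin (m + 1) → F) 1 := by
  rw [aa, wh_0]; exact φ.inv (sp F m 1).symm fun _ => rfl

/-- the degree -/
noncomputable def PP (F : Type u) (m : ℕ) : ℂ := ∏ i ∈ Finset.range m, ((Nat.card F : ℂ) ^ (i + 1) - 1)

theorem aa_cusp (hψ : ψ ≠ 1) (h : Cusp φ) : ∀ m k, aa ψ φ m k = PP F m * del ψ (m + 1 + k) φ
  | 0, k => by rw [aa_zero hψ]; simp [PP]
  | m + 1, k => by
    have : Nontrivial (Fin (1 + k) → F) := by rw [add_comm]; infer_instance
    rw [aa_succ hψ, aa_cusp hψ h m, bb, wh_zero, Finset.sum_eq_zero fun y _ => by rw [h, mul_zero], PP, PP,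
      Finset.prod_range_succ, ← add_assoc]
    ring

theorem cusp_deg (hψ : ψ ≠ 1) (h : Cusp φ) : φ.f (Fin (m + 1) → F) 1 = PP F m * del ψ (m + 1) φ := by
  rw [← aa_0 (ψ := ψ), aa_cusp hψ h]

theorem del_expand (φ : Fam F) : del ψ n φ = ∑ α : Ir F n, ip φ (fam α) (Fin n → F) * del ψ n (fam α) := by
  simp only [del, classInner_def, expand1 φ (finrank_fin_fun F), Finset.sum_mul, Finset.mul_sum]
  rw [Finset.sum_comm]
  exact Finset.sum_congr rfl fun α _ => Finset.sum_congr rfl fun u _ => by ring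

theorem card_GL (m : ℕ) : (Nat.card (End F (Fin m → F))ˣ : ℂ) = Nat.card (UT m F) * PP F m := by
  cases nonempty_fintype F
  have h : Nat.card (UT m F) = ∏ i ∈ Finset.range m, Nat.card F ^ i := by
    induction m with
    | zero =>
      have := sub_UT (F := F) (Nat.zero_le 1)
      have : Unique (UT 0 F) := uniqueOfSubsingleton 1
      simp
    | succ m ih => rw [add_comm, card_UT, ih, add_comm, Finset.prod_range_succ]
  rw [← Nat.card_congr (GeneralLinearGroup.toLin (n := Fin m) (R := F)).toEquiv, card_GL_field, h, PP,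
    ← Finset.prod_range_reflect (fun i => (Nat.card F : ℂ) ^ (i + 1) - 1), Nat.cast_prod, Nat.cast_prod,
    ← Finset.prod_mul_distrib, Finset.prod_range, Nat.card_eq_fintype_card]
  refine Finset.prod_congr rfl fun i _ => ?_
  rw [Nat.cast_sub (Nat.pow_le_pow_right Fintype.card_pos i.2.le), Nat.cast_pow, Nat.cast_pow, mul_sub,
    ← pow_add, mul_one, show i.val + (m - 1 - i + 1) = m by omega]

theorem sum_del_one (m : ℕ) : ∑ α : Ir F m, del ψ m (fam α) * (fam α).f (Fin m → F) 1 = PP F m := by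
  have e : ∀ (α : Ir F m) (u : UT m F), (fam α).f _ (lin u) = α.1 (GeneralLinearGroup.toLin u.1) :=
    fun α u => congrFun (cl_fam α) (GeneralLinearGroup.toLin u.1)
  have e1 : ∀ α : Ir F m, (fam α).f _ 1 = α.1 1 := fun α => congrFun (cl_fam α) 1
  simp only [del, classInner_def, e, e1, Finset.sum_mul, Finset.mul_sum]
  rw [Finset.sum_comm, Finset.sum_eq_single 1 (fun u _ hu => ?_) (by simp)]
  · have := sum_irr_sq (G := (End F (Fin m → F))ˣ)
    rw [card_GL, ← inv_mul_eq_iff_eq_mul₀ (card_ne _), Finset.mul_sum] at this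
    rw [← this]
    exact Finset.sum_congr rfl fun α _ => by simp; ring
  · have := sum_irr_one_mul_of_ne (g := GeneralLinearGroup.toLin u.1) (by simpa using hu)
    rw [← mul_zero ((Nat.card (UT m F) : ℂ)⁻¹ * conj (gen ψ m u)), ← this, Finset.mul_sum]
    exact Finset.sum_congr rfl fun α _ => by ring

/-- the norm of the Gelfand-Graev character -/
noncomputable def gam (ψ : AddChar F ℂ) (k : ℕ) : ℂ := ∑ α : Ir F k, del ψ k (fam α) * del ψ k (fam α)

theorem sum_bb (hψ : ψ ≠ 1) (h : k + m = n) :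
    ∑ α : Ir F n, del ψ n (fam α) * bb ψ (fam α) m k = PP F m * gam ψ k := by
  subst h
  have e : ∀ α : Ir F (k + m), bb ψ (fam α) m k = ∑ β : Ir F m, ∑ γ : Ir F k,
      ip (mul (fam β) (fam γ)) (fam α) (Fin (k + m) → F) * ((fam β).f _ 1 * del ψ k (fam γ)) := fun α => by
    simp only [bb, wh_zero, res_expand _ (finrank_fin_fun F) (finrank_fin_fun F), del, classInner_def,
      Finset.mul_sum]
    rw [Finset.sum_comm]
    refine Finset.sum_congr rfl fun β _ => ?_
    rw [Finset.sum_comm]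
    refine Finset.sum_congr rfl fun γ _ => Finset.sum_congr rfl fun y _ => ?_
    rw [ip_congr (co (d := k + m) (by simp [add_comm])), show ip (fam α) _ _ = ip _ (fam α) _ from
      (isCh_fam α _).inner_comm (((isCh_fam β).mul (isCh_fam γ) (deg_fam β)) _)]
    ring
  simp only [e, Finset.mul_sum]
  rw [Finset.sum_comm, ← sum_del_one (ψ := ψ), gam, Finset.sum_mul_sum]
  refine Finset.sum_congr rfl fun β _ => ?_
  rw [Finset.sum_comm]
  refine Finset.sum_congr rfl fun γ _ => ?_
  have := del_mul (b := k) (τ := fam γ) hψ (deg_fam β)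
  rw [del_expand] at this
  rw [show ∀ a b c d : ℂ, a * b * (c * d) = a * c * (b * d) from fun _ _ _ _ => by ring, ← this,
    Finset.sum_mul]
  exact Finset.sum_congr rfl fun α _ => by ring

theorem sum_aa (hψ : ψ ≠ 1) : ∀ m k n, m + 1 + k = n → ∑ α : Ir F n, del ψ n (fam α) * aa ψ (fam α) m k =
    PP F m * ∑ j ∈ Finset.range (m + 1), gam ψ (j + 1 + k)
  | 0, k, n, h => by
    obtain rfl : 1 + k = n := h
    simp [aa_zero hψ, PP, gam]
  | m + 1, k, n, h => by
    simp only [aa_succ hψ, mul_add, Finset.sum_add_distrib, mul_left_comm _ (_ - 1 : ℂ)]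
    rw [sum_bb hψ (by omega), ← Finset.mul_sum, sum_aa hψ m (1 + k) n (by omega),
      Finset.sum_range_succ' _ (m + 1), PP, PP, Finset.prod_range_succ]
    simp only [add_assoc, zero_add]
    ring

theorem gam_eq (hψ : ψ ≠ 1) (m : ℕ) : gam ψ (m + 1) + Nat.card F ^ m = Nat.card F ^ (m + 1) := by
  have h : ∀ m, ∑ j ∈ Finset.range m, gam ψ (j + 1) = Nat.card F ^ m - 1 := by
    rintro (_ | m)
    · simp
    have := sum_aa hψ m 0 _ rfl
    simp only [aa_0, add_zero] at this
    rw [sum_del_one, PP, Finset.prod_range_succ, ← PP] at this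
    refine (mul_left_cancel₀ ?_ this).symm
    refine Finset.prod_ne_zero_iff.2 fun i _ => sub_ne_zero.2 ?_
    exact_mod_cast (Nat.one_lt_pow (Nat.succ_ne_zero i) Finite.one_lt_card).ne'
  have := h (m + 1)
  rw [Finset.sum_range_succ, h] at this
  linear_combination this

theorem card_multiset (hψ : ψ ≠ 1) (hg : ∀ n (α : Ir F n), del ψ n (fam α) = 0 ∨ del ψ n (fam α) = 1)
    (n : ℕ) : (Nat.card {s : Multiset (Σ d, Cu F d) // (s.map fun x => x.1 + 1).sum = n} : ℂ) = gam ψ n := by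
  classical
  have d1 : ∀ L : List (Σ d, Cu F d), del ψ (deg L) (prodL L) = 1 := fun L => by
    induction L with
    | nil =>
      have := sub_UT (F := F) (Nat.zero_le 1)
      have : Unique (UT 0 F) := uniqueOfSubsingleton 1
      change del ψ 0 _ = 1
      rw [del, classInner_def, Fintype.sum_subsingleton _ 1, lin_one,
        show (prodL []).f (Fin 0 → F) 1 = 1 from congrFun (cl_fam _) 1]
      simp
    | cons s L ih =>
      rw [show deg (s :: L) = deg L + (s.1 + 1) from add_comm _ _, prodL, del_mul hψ (deg_fam _), ih, mul_one]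
      refine (hg _ _).resolve_left fun e => (fam_pos s.2.1 (finrank_fin_fun F)).ne' ?_
      rw [cusp_deg hψ s.2.2, e, mul_zero]
  have d2 : ∀ L : List (Σ d, Cu F d), deg L = n → ∃! α : Ir F n, del ψ n (fam α) ≠ 0 ∧
      ip (fam α) (prodL L) (Fin n → F) ≠ 0 := by
    rintro L rfl
    have h := d1 L
    rw [del_expand] at h
    have e : ∀ α : Ir F (deg L), ip (fam α) (prodL L) (Fin (deg L) → F) = ip (prodL L) (fam α) _ :=
      fun α => (isCh_fam α _).inner_comm (isCh_prodL L _)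
    have e2 : ∀ α : Ir F (deg L), ∃ k : ℕ, ip (prodL L) (fam α) (Fin (deg L) → F) * del ψ _ (fam α) = k :=
      fun α => by
        obtain ⟨k, hk⟩ := (isCh_prodL L _).inner_nat (isCh_fam α (Fin (deg L) → F))
        rcases hg _ α with h | h
        · exact ⟨0, by rw [h, mul_zero, Nat.cast_zero]⟩
        · exact ⟨k, by rw [h, mul_one]; exact hk⟩
    choose c hc using e2
    have e3 : ∀ α : Ir F (deg L), (del ψ _ (fam α) ≠ 0 ∧ ip (fam α) (prodL L) (Fin (deg L) → F) ≠ 0) ↔
        c α ≠ 0 := fun α => by rw [e, ← Nat.cast_ne_zero (R := ℂ), ← hc, mul_ne_zero_iff, and_comm]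
    simp only [e3, hc] at h ⊢
    have h' : ∑ α, c α = 1 := by exact_mod_cast h
    obtain ⟨α, -, h1⟩ := Finset.exists_ne_zero_of_sum_ne_zero (h'.trans_ne one_ne_zero)
    refine ⟨α, h1, fun β hβ => not_not.1 fun e => ?_⟩
    have := Finset.add_le_sum (f := c) (fun _ _ => Nat.zero_le _) (Finset.mem_univ β) (Finset.mem_univ α) e
    omega
  choose L h1 h2 using exists_list (F := F) n
  let Φ : {α : Ir F n // del ψ n (fam α) ≠ 0} →
      {s : Multiset (Σ d, Cu F d) // (s.map fun x => x.1 + 1).sum = n} := fun α => ⟨L α.1, h1 α.1⟩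
  have hΦ : Function.Bijective Φ := by
    refine ⟨fun α β e => Subtype.ext ((d2 _ (h1 α.1)).unique ⟨α.2, h2 _⟩ ⟨β.2, ?_⟩), ?_⟩
    · rw [prodL_perm (Quotient.exact (congrArg Subtype.val e))]; exact h2 _
    · rintro ⟨⟨M⟩, hM⟩
      obtain ⟨α, ⟨a1, a2⟩, -⟩ := d2 M hM
      refine ⟨⟨α, a1⟩, Subtype.ext (Quotient.sound (perm_of_ip M _ ?_))⟩
      rw [ip_sum (V := Fin (deg M) → F) _ _ ((finrank_fin_fun F).trans hM)]
      have q : ∀ (M : List (Σ d, Cu F d)) (γ : Ir F n), conj (ip (prodL M) (fam γ) (Fin n → F)) =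
          ip (fam γ) (prodL M) (Fin n → F) := fun M γ => classInner_conj_symm _ _
      simp only [q]
      rw [Ne, Finset.sum_eq_zero_iff_of_nonneg fun γ _ => mul_nonneg (ip_nonneg (isCh_prodL _) (isCh_fam γ))
        (ip_nonneg (isCh_fam γ) (isCh_prodL _))]
      exact fun h => mul_ne_zero (fun e => h2 α (by rw [← q, e, map_zero])) a2 (h α (Finset.mem_univ _))
  rw [← Nat.card_eq_of_bijective Φ hΦ, Nat.card_eq_fintype_card, Fintype.card_subtype, Finset.card_filter,
    gam, Nat.cast_sum]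
  exact Finset.sum_congr rfl fun α _ => by rcases hg _ α with h | h <;> simp [h]

end H22.Cu
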