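import Cfsg.Agent.H22.IsoG

/-! Quadratic forms over the field with two elements with a given polarization. -/

set_option autoImplicit false

namespace H22

open Module H23 H23.Form Matrix Cfsg

variable {m : ℕ}

/-- functions polarizing to the standard alternating form -/
def Pol2 (q : (Fin m ⊕ Fin m → ZMod 2) → ZMod 2) : Prop :=
  ∀ u v, q (u + v) = q u + q v + (ofQuad (qPlus m (ZMod 2))).B u v

variable {q : (Fin m ⊕ Fin m → ZMod 2) → ZMod 2}

theorem Pol2.zero (h : Pol2 q) : q 0 = 0 := by simpa using h 0 0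

/-- the quadratic form -/
def Pol2.form (h : Pol2 q) : QuadraticForm (ZMod 2) (Fin m ⊕ Fin m → ZMod 2) where
  toFun := q
  toFun_smul a v := by
    rcases (by decide : ∀ a : ZMod 2, a = 0 ∨ a = 1) a with rfl | rfl <;> simp [h.zero]
  exists_companion' := ⟨_, h⟩

theorem Pol2.nondeg (h : Pol2 q) : (ofQuad h.form).Nondeg := fun u hu =>
  qPlus_nondeg m u fun v => by
    have : q (u + v) - q u - q v = 0 := hu v
    rw [h] at this
    linear_combination this

theorem pol2_qPlus : Pol2 (qPlus m (ZMod 2)) := fun u v => by simp [QuadraticMap.polar]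

theorem Pol2.add (h : Pol2 q) (w : Fin m ⊕ Fin m → ZMod 2) :
    Pol2 fun v => q v + (ofQuad (qPlus m (ZMod 2))).B v w := fun u v => by
  simp only [h u v, map_add, LinearMap.add_apply]; ring

theorem Pol2.exists_eq (h : Pol2 q) :
    ∃ w, q = fun v => qPlus m (ZMod 2) v + (ofQuad (qPlus m (ZMod 2))).B v w := by
  let l : (Fin m ⊕ Fin m → ZMod 2) →ₗ[ZMod 2] ZMod 2 := AddMonoidHom.toZModLinearMap 2
    (AddMonoidHom.mk' (fun v => q v - qPlus m _ v) fun u v => by rw [h, pol2_qPlus]; ring)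
  obtain ⟨w, hw⟩ := (qPlus_nondeg m).exists_repr l
  refine ⟨w, funext fun v => ?_⟩
  rw [B_comm_quad rfl, hw]
  exact (add_sub_cancel _ _).symm

theorem Pol2.two_mul_card_ne (h : Pol2 q) (hm : 1 ≤ m) :
    2 * Nat.card {v // q v = 0} ≠ 2 ^ (2 * m) := by
  obtain ⟨m, rfl⟩ := Nat.exists_eq_add_of_le' hm
  have h1 : Nat.card {v // q v = 0} = nsing (ofQuad h.form) := (nsing_ofQuad h.form).symm
  have h2 : 1 ≤ 2 ^ m := Nat.one_le_two_pow
  rcases exists_equiv_plus_or_minus h.nondeg (finrank_plus _) aniso_two with ⟨e, he⟩ | ⟨e, he⟩ <;>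
    rw [h1, nsing_congr e he]
  · rw [nsing_qPlus, ZMod.card, two_mul (m + 1), pow_add 2 (m + 1), Nat.add_sub_cancel, pow_succ]
    zify [show 1 ≤ 2 ^ m * 2 by omega] at h2 ⊢
    intro h; nlinarith
  · rw [nsing_qMinus m aniso_two, ZMod.card, two_mul (m + 1), pow_add 2 (m + 1), pow_succ]
    rcases m with _ | m
    · simp
    · rw [Nat.add_sub_cancel]
      zify [h2]
      have : (0 : ℤ) < 2 ^ m := by positivity
      simp only [pow_succ]
      intro h; nlinarith

theorem Pol2.equiv_iff (h : Pol2 q) (hm : 1 ≤ m) (w : Fin m ⊕ Fin m → ZMod 2) :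
    (∃ g : (Fin m ⊕ Fin m → ZMod 2) ≃ₗ[ZMod 2] (Fin m ⊕ Fin m → ZMod 2),
      ∀ v, q v + (ofQuad (qPlus m (ZMod 2))).B v w = q (g v)) ↔ q w = 0 := by
  have h2 : ∀ a : ZMod 2, a * a = a ∧ a + a = 0 ∧ (a ≠ 0 ↔ a = 1) := by decide
  constructor
  · rintro ⟨g, hg⟩
    by_contra hw
    refine h.two_mul_card_ne hm ?_
    have h1 : Nat.card {v // q v = 0} = Nat.card {v // ¬ q v = 0} :=
      Nat.card_congr ((g.symm.toEquiv.trans (Equiv.addRight w)).subtypeEquiv fun v => by
        have := hg (g.symm v)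
        simp only [LinearEquiv.apply_symm_apply] at this
        simp only [Equiv.trans_apply, LinearEquiv.coe_toEquiv, Equiv.coe_addRight, h _ w, ← this,
          (h2 _).2.2.mp hw]
        generalize q (g.symm v) = a
        generalize (ofQuad (qPlus m (ZMod 2))).B (g.symm v) w = b
        revert a b; decide)
    rw [two_mul]
    nth_rw 2 [h1]
    rw [← Nat.card_sum, Nat.card_congr (Equiv.sumCompl _)]
    simp [two_mul]
  · intro hw
    have hww : (ofQuad (qPlus m (ZMod 2))).B w w = 0 := by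
      rw [B_self_quad rfl, two_mul, (h2 _).2.1]
    refine ⟨equivOfIsometry (qPlus_nondeg m) (LinearMap.id +
      (((ofQuad (qPlus m (ZMod 2))).B w).smulRight w)) fun x y => ?_, fun v => ?_⟩
    · simp only [LinearMap.add_apply, LinearMap.id_apply, LinearMap.smulRight_apply, map_add,
        B_smul_left, B_smul_right, hww, RingHom.id_apply, B_comm_quad (ofQuad_κ _) x w]
      grind
    · simp only [equivOfIsometry_apply, LinearMap.add_apply, LinearMap.id_apply,
        LinearMap.smulRight_apply, h v, B_smul_right, B_comm_quad (ofQuad_κ _) w v, (h2 _).1]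
      rw [show q (_ • w) = _ from h.form.map_smul _ w, show h.form w = 0 from hw]
      simp

theorem card_pol2 (P : ((Fin m ⊕ Fin m → ZMod 2) → ZMod 2) → Prop) :
    Nat.card {q // Pol2 q ∧ P q} =
      Nat.card {w // P fun v => qPlus m (ZMod 2) v + (ofQuad (qPlus m (ZMod 2))).B v w} := by
  refine (Nat.card_congr (Equiv.ofBijective (fun w => ⟨_, pol2_qPlus.add w.1, w.2⟩)
    ⟨fun w w' h => Subtype.ext (sub_eq_zero.mp (qPlus_nondeg m _ fun v => ?_)), fun q => ?_⟩)).symm
  · have := congrFun (congrArg Subtype.val h) v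
    rw [B_comm_quad rfl, map_sub, add_left_cancel this, sub_self]
  · obtain ⟨w, hw⟩ := q.2.1.exists_eq
    exact ⟨⟨w, hw ▸ q.2.2⟩, Subtype.ext hw.symm⟩

end H22
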