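import Cfsg.Agent.H22.MuE

/-!
Minimal degree of the unitary groups, part six: isotropic subgroups in dimension three.
-/

set_option autoImplicit false

namespace H22

open H23 H23.Form Module Pointwise Cfsg

universe u

theorem ncard_le_of_shift {A : Type*} [AddCommGroup A] [Finite A] {K L : Set A} (w : A)
    (h : ∀ u ∈ K, u + w ∈ L) : K.ncard ≤ L.ncard :=
  Set.ncard_le_ncard_of_injOn (fun u => u + w) h (add_left_injective w).injOn

namespace UC

variable {F : Type*} {V : Type u} [Field F] [Fintype F] [AddCommGroup V] [Module F V]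
  [FiniteDimensional F V] (C : UC F V)

omit [FiniteDimensional F V] in
theorem mem_of_fix {D : AddSubgroup V} {g : C.Φ.O} (h : g • D = D) {v : V} (hv : v ∈ D) :
    g.1 v ∈ D := by
  rw [← h]; exact AddSubgroup.smul_mem_pointwise_smul _ _ _ hv

/-- the perpendicular of a non-isotropic vector -/
def psub {w : V} (hw : C.Φ.B w w ≠ 0) : UC F (C.Φ.perp (F ∙ w)) :=
  C.sub _ (by rw [C.hΦ.perp_perp]; exact (disjoint_perp_single hw).symm)

variable (hV : finrank F V = 3)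
include hV

theorem finrank_psub {w : V} (hw : w ≠ 0) : finrank F (C.Φ.perp (F ∙ w)) = 2 := by
  have := finrank_perp_single C.hΦ hw
  omega

theorem ncard_norm3 {a : F} (ha : a ≠ 0) (h : C.σ a = a) :
    {w | C.Φ.B w w = a}.ncard = C.q ^ 2 * (C.q ^ 3 + 1) := by
  rw [C.ncard_norm ha h, hV, if_neg (by decide)]

theorem h3_small {D : AddSubgroup V} (hD : D ≠ ⊥) (h : (D : Set V).ncard ≤ C.q ^ 2) :
    (C.q + 1) * (D : Set V).ncard ≤ C.q * (gorb C.G D).ncard := by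
  have := finite_of_fd F V
  obtain ⟨⟨v, hv⟩, h0⟩ := AddSubgroup.ne_bot_iff_exists_ne_zero.1 hD
  have hv0 : v ≠ 0 := fun e => h0 (Subtype.ext e)
  have h1 := gorb_count (G := C.G) (Set.toFinite (gorb C.G D))
    (K := {w | w ≠ 0 ∧ C.Φ.B w w = C.Φ.B v v}) (S := D) (Set.toFinite _) (fun w hw => by
      obtain ⟨g, hg, e⟩ := C.exists_SO_one (by omega) hv0 hw.1 hw.2.symm
      exact ⟨g, hg, v, hv, e⟩) fun g _ hg p hp => C.mem_of_fix hg hp
  obtain ⟨r, hr⟩ : ∃ r, C.q = r + 2 := ⟨C.q - 2, by have := C.two_le; omega⟩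
  have h2 : (C.q + 1) * C.q ^ 3 ≤ {w | w ≠ 0 ∧ C.Φ.B w w = C.Φ.B v v}.ncard := by
    by_cases h3 : C.Φ.B v v = 0
    · rw [h3, ncard_iso, hV, if_neg (by decide), hr,
        show (r + 2) ^ (3 - 1) - 1 = (r + 1) * (r + 3) by apply Nat.sub_eq_of_eq_add; ring]
      nlinarith [Nat.zero_le (r * (r + 3) * ((r + 2) ^ 3 + 1))]
    · refine le_trans ?_ (Set.ncard_le_ncard (s := {w | C.Φ.B w w = C.Φ.B v v})
        fun w hw => ⟨by rintro rfl; exact h3 (by simpa using hw.symm), hw⟩)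
      rw [C.ncard_norm3 hV h3 (C.σB v v), hr]
      exact Nat.mul_le_mul (by nlinarith) (Nat.le_succ _)
  have h3 : 0 < (D : Set V).ncard := (Set.ncard_pos (Set.toFinite _)).2 ⟨v, hv⟩
  refine Nat.le_of_mul_le_mul_right ?_ h3
  calc _ ≤ (C.q + 1) * C.q ^ 2 * C.q ^ 2 := Nat.mul_le_mul (Nat.mul_le_mul_left _ h) h
    _ = C.q * ((C.q + 1) * C.q ^ 3) := by ring
    _ ≤ _ := by rw [mul_assoc]; exact Nat.mul_le_mul_left _ (h2.trans h1)

theorem h3_plane {D : AddSubgroup V} (h : (D : Set V).ncard ≤ C.q ^ 3) {w y : V} (hw : w ∈ D)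
    (hw0 : C.Φ.B w w ≠ 0) (hy0 : y ≠ 0) (hy : C.Φ.B y y = 0) (h1 : ∀ u ∈ D, C.Φ.B y u = 0)
    (h2 : ∀ z, (∀ u ∈ D, C.Φ.B z u = 0) → z ∈ F ∙ y) :
    (C.q + 1) * (D : Set V).ncard ≤ C.q * (gorb C.G D).ncard := by
  have := finite_of_fd F V
  have hind : ∀ w y : V, C.Φ.B w w ≠ 0 → y ≠ 0 → C.Φ.B y w = 0 → y ∉ F ∙ w := fun w y h1 h2 h3 e => by
    obtain ⟨a, rfl⟩ := Submodule.mem_span_singleton.1 e
    simp [h1] at h3
    exact h2 (by simp [h3])
  have hw1 : w ≠ 0 := by rintro rfl; simp at hw0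
  have h3 := gorb_count (G := C.G) (Set.toFinite (gorb C.G D))
    (K := {p : V × V | C.Φ.B p.1 p.1 = C.Φ.B w w ∧ p.2 ≠ 0 ∧ C.Φ.B p.2 p.2 = 0 ∧ C.Φ.B p.2 p.1 = 0})
    (S := (D : Set V) ×ˢ (((F ∙ y : Submodule F V) : Set V) \ {0})) (Set.toFinite _) (by
      rintro ⟨w', y'⟩ ⟨k1, k2, k3, k4⟩
      obtain ⟨g, hg, e⟩ := C.hΦ.witt_fin
        (linearIndependent_pair_of_notMem hw1 (hind w y hw0 hy0 (h1 w hw)))
        (linearIndependent_pair_of_notMem (c := w') (by rintro rfl; exact hw0 (by simpa using k1.symm))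
          (hind w' y' (k1 ▸ hw0) k2 k4)) (by
          have := C.Φ.B_eq_zero_symm k4
          have := C.Φ.B_eq_zero_symm (h1 w hw)
          have := h1 w hw
          intro i j
          fin_cases i <;> fin_cases j <;> simp_all) (fun i => by rw [Q_of_κ C.hκ, Q_of_κ C.hκ])
      obtain ⟨y2, l1, -, l2, l3⟩ := C.hΦ.exists_partner (hind w y hw0 hy0 (h1 w hw)) hy
        (Q_of_κ C.hκ y) fun z hz => by
          obtain ⟨a, rfl⟩ := Submodule.mem_span_singleton.1 hz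
          simp [h1 w hw]
      have hh : Hyp C.Φ y y2 := ⟨C.sing.2 hy, C.sing.2 l1, l2⟩
      have l4 := C.Φ.B_eq_zero_symm (l3 w (Submodule.mem_span_singleton_self w))
      have l5 := norm_det_eq_one C.hΦ ⟨g, hg⟩
      obtain ⟨r, a, b, hr, hr'⟩ : ∃ (r : C.Φ.O) (a b : F), LinearMap.det r.1.toLinearMap =
          (LinearMap.det g.toLinearMap)⁻¹ ∧ ∀ x, r.1 x = C.Φ.hdiag y y2 a b x := by
        rw [σ_apply] at l5
        obtain ⟨q, σ, hF, rfl, Φ, hΦ, hε⟩ := C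
        exact exists_hdiag_det hF hΦ hh (by rw [inv_pow, pow_succ]; exact inv_eq_one.2 l5)
      have l6 : r.1 y = a • y := by rw [hr', hdiag_left hh]
      have ha : a ≠ 0 := by rintro rfl; exact hy0 (by simpa using l6)
      refine ⟨⟨g, hg⟩ * r, mem_SO.2 ?_, (w, a⁻¹ • y), ⟨hw, Submodule.smul_mem _ _
        (Submodule.mem_span_singleton_self y), by simp [ha, hy0]⟩, Prod.ext ?_ ?_⟩
      · rw [Subgroup.coe_mul, LinearEquiv.coe_toLinearMap_mul, map_mul, hr,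
          mul_inv_cancel₀ (right_ne_zero_of_mul_eq_one l5)]
      · change g (r.1 w) = w'
        rw [hr', hdiag_perp _ _ (h1 w hw) l4]
        exact e 0
      · change g (r.1 (a⁻¹ • y)) = y'
        rw [map_smul, l6, inv_smul_smul₀ ha]
        exact e 1) (by
      rintro g _ hg ⟨u, z⟩ ⟨k1, k2, k3⟩
      refine ⟨C.mem_of_fix hg k1, h2 _ fun v hv => ?_, O_apply_ne_zero g k3⟩
      obtain ⟨a, rfl⟩ := Submodule.mem_span_singleton.1 k2
      change C.Φ.B (g.1 (a • y)) v = 0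
      rw [O_B_left, B_smul_left, h1 _ (C.mem_of_fix (inv_smul_eq_iff.2 hg.symm) hv), mul_zero])
  have h4 := sum_le_of_fiber (Set.toFinite {p : V × V | C.Φ.B p.1 p.1 = C.Φ.B w w ∧ p.2 ≠ 0 ∧
    C.Φ.B p.2 p.2 = 0 ∧ C.Φ.B p.2 p.1 = 0}) Prod.fst
    (Set.toFinite {v | C.Φ.B v v = C.Φ.B w w}).toFinset (fun _ => (C.q ^ 2 - 1) * (C.q + 1)) 1 (by
      intro v hv
      have hv : C.Φ.B v v = C.Φ.B w w := by simpa using hv
      have k1 := (C.psub (hv ▸ hw0)).ncard_iso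
      rw [C.finrank_psub hV (by rintro rfl; exact hw0 (by simpa using hv.symm)),
        if_pos (by decide), pow_one] at k1
      rw [one_mul]
      refine le_trans k1.ge (Set.ncard_le_ncard_of_injOn (fun z => (v, z.1)) ?_
        fun a _ b _ e => Subtype.ext (Prod.ext_iff.1 e).2)
      intro z hz
      exact ⟨⟨hv, fun e => hz.1 (Subtype.ext e), hz.2,
        C.Φ.B_eq_zero_symm (C.Φ.mem_perp_span_singleton.1 z.2)⟩, rfl⟩)
  rw [Finset.sum_const, smul_eq_mul, ← Set.ncard_eq_toFinset_card, one_mul,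
    C.ncard_norm3 hV hw0 (C.σB w w)] at h4
  rw [Set.ncard_prod, Set.ncard_sdiff_singleton_of_mem (zero_mem (F ∙ y)), C.ncard_sub,
    finrank_span_singleton hy0, ← mul_assoc] at h3
  have h5 := h4.trans h3
  rw [mul_comm (C.q ^ 2 - 1), ← mul_assoc] at h5
  replace h5 := Nat.le_of_mul_le_mul_right h5 (by
    have := C.two_le
    have : 2 ^ 2 ≤ C.q ^ 2 := Nat.pow_le_pow_left this 2
    omega)
  have h6 : 0 < (D : Set V).ncard := (Set.ncard_pos (Set.toFinite _)).2 ⟨w, hw⟩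
  refine Nat.le_of_mul_le_mul_right ?_ h6
  calc _ ≤ (C.q + 1) * C.q ^ 3 * C.q ^ 3 := Nat.mul_le_mul (Nat.mul_le_mul_left _ h) h
    _ ≤ C.q * (C.q ^ 2 * (C.q ^ 3 + 1) * (C.q + 1)) := by nlinarith [Nat.zero_le (C.q ^ 3 * (C.q + 1))]
    _ ≤ _ := by rw [mul_assoc C.q]; exact Nat.mul_le_mul_left _ h5

omit hV in
theorem kappa {t : F} (ht : t + C.σ t = 0) (ht0 : t ≠ 0) {D : AddSubgroup V} (hI : C.Iso t D)
    {w : V} (hw : w ∈ D) (hw0 : C.Φ.B w w ≠ 0) :
    {u ∈ (D : Set V) | C.Φ.B u u = C.Φ.B w w}.ncard * C.q ^ 4 ≤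
      (D : Set V).ncard * ((C.q - 1) * C.q ^ 3) := by
  have := finite_of_fd F V
  set K := {u ∈ (D : Set V) | C.Φ.B u u = C.Φ.B w w}
  have h1 := Set.ncard_sdiff_add_ncard_of_subset (s := K) (t := D) (Set.sep_subset _ _)
  have h2 := Set.ncard_inter_add_ncard_sdiff_eq_ncard K {u | u + w ∈ K}
  have h3 := ncard_le_of_shift (K := K \ {u | u + w ∈ K}) (L := (D : Set V) \ K) w
    fun u hu => ⟨D.add_mem hu.1.1 hw, hu.2⟩
  have h4 : ∀ u ∈ K ∩ {u | u + w ∈ K}, C.Φ.B u w + C.Φ.B w u = -C.Φ.B w w := fun u hu => by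
    have h5 := hu.2.2
    simp only [map_add, LinearMap.add_apply, hu.1.2] at h5
    linear_combination h5
  have h5 : (2 : F) ≠ 0 → 3 * K.ncard ≤ 2 * (D : Set V).ncard := fun h2' => by
    have := ncard_le_of_shift (K := K ∩ {u | u + w ∈ K}) (L := (D : Set V) \ K) (-w)
      fun u hu => ⟨D.add_mem hu.1.1 (D.neg_mem hw), fun h6 => by
        have h7 := h6.2
        simp only [map_add, map_neg, LinearMap.add_apply, LinearMap.neg_apply, hu.1.2] at h7
        exact mul_ne_zero h2' hw0 (by linear_combination h7 + h4 u hu)⟩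
    omega
  have h6 : 4 * K.ncard ≤ 3 * (D : Set V).ncard := by
    by_cases h2' : (2 : F) = 0
    · rcases Set.eq_empty_or_nonempty (K ∩ {u | u + w ∈ K}) with h7 | ⟨u0, h7⟩
      · rw [h7, Set.ncard_empty] at h2; omega
      have h8 := ncard_le_of_shift (K := K ∩ {u | u + w ∈ K})
        (L := (D : Set V) \ (K ∩ {u | u + w ∈ K})) u0
        fun u hu => ⟨D.add_mem hu.1.1 h7.1.1, fun h9 => by
          have h10 := h4 _ h9
          simp only [map_add, LinearMap.add_apply] at h10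
          exact hw0 (by linear_combination h10 - h4 u hu - h4 u0 h7 + C.Φ.B w w * h2')⟩
      have h9 := Set.ncard_sdiff_add_ncard_of_subset (s := K ∩ {u | u + w ∈ K}) (t := D)
        fun u hu => hu.1.1
      omega
    · have := h5 h2'; omega
  have hq := C.two_le
  by_cases hq2 : C.q = 2
  · have h7 : K ∩ {u | u + w ∈ K} = ∅ := Set.eq_empty_of_forall_notMem fun u hu => by
      have h8 := hI u hu.1.1 w hw
      have h2' : (2 : F) = 0 := by
        have h9 := FiniteField.cast_card_eq_zero F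
        rw [C.hF, hq2] at h9
        exact pow_eq_zero_iff two_ne_zero |>.1 (by exact_mod_cast h9)
      have h9 : C.σ (t * (C.Φ.B u w - C.Φ.B w u)) = t * (C.Φ.B u w - C.Φ.B w u) := by
        simp only [map_mul, map_sub, σB]; linear_combination (C.Φ.B w u - C.Φ.B u w) * ht
      rw [σ_apply, hq2, sq] at h9
      have h10 : t * (C.Φ.B u w - C.Φ.B w u) ≠ 0 := mul_ne_zero ht0 fun e => hw0 (by
        linear_combination h4 u hu - e - C.Φ.B w u * h2')
      rw [mul_left_cancel₀ h10 (h9.trans (mul_one _).symm)] at h8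
      exact hψ1 h8
    rw [h7, Set.ncard_empty] at h2
    rw [hq2]; omega
  by_cases hq3 : C.q = 3
  · have := h5 (H23.two_ne_zero_of_odd_card (by rw [C.hF, hq3]; decide))
    rw [hq3]; omega
  obtain ⟨r, hr⟩ : ∃ r, C.q = r + 4 := ⟨C.q - 4, by omega⟩
  rw [pow_succ' C.q 3, ← mul_assoc, ← mul_assoc]
  refine Nat.mul_le_mul_right _ ?_
  rw [hr, show r + 4 - 1 = r + 3 from rfl]
  have : K.ncard ≤ (D : Set V).ncard := by omega
  nlinarith

theorem h3_main {t : F} (ht : t + C.σ t = 0) (ht0 : t ≠ 0) {D : AddSubgroup V} (hI : C.Iso t D)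
    (h : (D : Set V).ncard ≤ C.q ^ 3) {w s : V} (hw : w ∈ D) (hs : s ∈ D) (hw0 : C.Φ.B w w ≠ 0)
    (hδ : C.Φ.B w w * C.Φ.B s s - C.Φ.B w s * C.Φ.B s w ≠ 0) :
    (C.q + 1) * (D : Set V).ncard ≤ C.q * (gorb C.G D).ncard := by
  classical
  have := finite_of_fd F V
  set P : V × V → Prop := fun p => C.Φ.B p.1 p.1 = C.Φ.B w w ∧ C.Φ.B p.1 p.2 = C.Φ.B w s ∧
    C.Φ.B p.2 p.2 = C.Φ.B s s with hP
  have hdis : ∀ p, P p → ∀ a b : F, C.Φ.B p.1 (a • p.1 + b • p.2) = 0 →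
      C.Φ.B p.2 (a • p.1 + b • p.2) = 0 → a = 0 ∧ b = 0 := by
    rintro ⟨u, v⟩ ⟨k1, k2, k3⟩ a b h1 h2
    have k4 : C.Φ.B v u = C.Φ.B s w := by rw [← C.σB, k2, σB]
    simp only [map_add, B_smul_right, k1, k2, k3, k4] at h1 h2
    exact ⟨(mul_eq_zero.1 (by linear_combination C.Φ.B s s * h1 - C.Φ.B w s * h2)).resolve_right hδ,
      (mul_eq_zero.1 (by linear_combination C.Φ.B w w * h2 - C.Φ.B s w * h1)).resolve_right hδ⟩
  have hind : ∀ p, P p → LinearIndependent F ![p.1, p.2] := fun p hp =>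
    LinearIndependent.pair_iff.2 fun a b e => hdis p hp a b (by simp [e]) (by simp [e])
  have hP0 : P (w, s) := ⟨rfl, rfl, rfl⟩
  have hZ : ∃ d ∈ C.Φ.perp (Submodule.span F {w, s}), C.Φ.B d d ≠ 0 := by
    refine exists_herm_self_ne_zero C.σ_ne C.Φ ?_ fun e => ?_
    · rw [C.hΦ.perp_perp, Submodule.disjoint_def]
      intro z h1 h2
      obtain ⟨a, b, rfl⟩ := Submodule.mem_span_pair.1 h2
      obtain ⟨rfl, rfl⟩ := hdis _ hP0 a b (mem_perp_pair.1 h1).1 (mem_perp_pair.1 h1).2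
      simp
    · have h1 := C.hΦ.finrank_perp_add (Submodule.span F {w, s})
      have h2 := finrank_span_list_le (F := F) [w, s]
      rw [show {x | x ∈ [w, s]} = {w, s} by ext; simp] at h2
      rw [e, finrank_bot] at h1
      simp only [List.length_cons, List.length_nil] at h2
      omega
  have h3 := gorb_count (G := C.G) (Set.toFinite (gorb C.G D)) (K := {p | P p})
    (S := {p | P p ∧ p.1 ∈ D ∧ p.2 ∈ D}) (Set.toFinite _) (by
      intro p hp
      obtain ⟨g, hg, e⟩ := C.hΦ.witt_fin (hind _ hP0) (hind p hp) (by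
        have k4 : C.Φ.B p.2 p.1 = C.Φ.B s w := by rw [← C.σB, hp.2.1, σB]
        intro i j
        fin_cases i <;> fin_cases j <;> simp [hp.1, hp.2.1, hp.2.2, k4])
        (fun i => by rw [Q_of_κ C.hκ, Q_of_κ C.hκ])
      obtain ⟨k, hk, e'⟩ := C.exists_SO_eq hZ ⟨g, hg⟩
      exact ⟨k, hk, (w, s), ⟨hP0, hw, hs⟩,
        Prod.ext ((e' w (Submodule.subset_span (by simp))).trans (e 0))
          ((e' s (Submodule.subset_span (by simp))).trans (e 1))⟩) (by
      rintro g _ hg p ⟨⟨k1, k2, k3⟩, k4, k5⟩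
      exact ⟨⟨(O_B _ g _ _).trans k1, (O_B _ g _ _).trans k2, (O_B _ g _ _).trans k3⟩,
        C.mem_of_fix hg k4, C.mem_of_fix hg k5⟩)
  have h4 := sum_le_of_fiber (Set.toFinite {p | P p}) Prod.fst
    (Set.toFinite {v | C.Φ.B v v = C.Φ.B w w}).toFinset (fun _ => C.q * (C.q ^ 2 - 1)) 1 (by
      intro v hv
      have hv : C.Φ.B v v = C.Φ.B w w := by simpa using hv
      have k1 := (C.psub (hv ▸ hw0)).ncard_norm (div_ne_zero hδ hw0) (by
        change C.σ _ = _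
        simp only [map_div₀, map_sub, map_mul, σB, mul_comm (C.Φ.B s w)])
      rw [C.finrank_psub hV (by rintro rfl; exact hw0 (by simpa using hv.symm)),
        if_pos (by decide), pow_one] at k1
      rw [one_mul]
      refine le_trans k1.ge (Set.ncard_le_ncard_of_injOn
        (fun z => (v, (C.Φ.B w s / C.Φ.B w w) • v + z.1)) ?_
        fun a _ b _ e => Subtype.ext (add_left_cancel (Prod.ext_iff.1 e).2))
      intro z hz
      have k2 := C.Φ.mem_perp_span_singleton.1 z.2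
      have k3 : C.Φ.B z z = _ := hz
      refine ⟨⟨hv, ?_, ?_⟩, rfl⟩
      · simp [hv, k2, hw0]
      · simp only [map_add, LinearMap.add_apply, B_smul_left, B_smul_right, hv, k2, k3,
          C.Φ.B_eq_zero_symm k2, map_div₀, σB]
        field_simp
        ring)
  have h5 := ncard_le_mul_of_cover (Set.toFinite {p | P p ∧ p.1 ∈ D ∧ p.2 ∈ D})
    (Set.toFinite {u ∈ (D : Set V) | C.Φ.B u u = C.Φ.B w w}).toFinset (fun u p => p.1 = u) 1
    (C.q ^ 2) (fun p hp => (Set.ncard_pos (Set.toFinite _)).2 ⟨p.1, by simp [hp.1.1, hp.2.1], rfl⟩)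
    (by
      intro u hu
      have hu : u ∈ D ∧ C.Φ.B u u = C.Φ.B w w := by simpa using hu
      rcases Set.eq_empty_or_nonempty {p ∈ {p | P p ∧ p.1 ∈ D ∧ p.2 ∈ D} | p.1 = u} with
        k1 | ⟨p0, k1⟩
      · simp only [k1, Set.ncard_empty, zero_le]
      have k2 := C.ncard_iso_le ht ht0 hI (U := C.Φ.perp (F ∙ u)) (by
        rw [C.hΦ.perp_perp]; exact (disjoint_perp_single (hu.2 ▸ hw0)).symm)
      rw [C.finrank_psub hV (by rintro rfl; exact hw0 (by simpa using hu.2.symm))] at k2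
      refine le_trans (Set.ncard_le_ncard_of_injOn (fun p => p.2 - p0.2) ?_ ?_) k2
      · intro p hp
        refine ⟨D.sub_mem hp.1.2.2 k1.1.2.2, C.Φ.mem_perp_span_singleton.2 ?_⟩
        rw [map_sub, sub_eq_zero]
        exact (hp.2 ▸ hp.1.1.2.1).trans (k1.2 ▸ k1.1.1.2.1).symm
      · intro p hp p' hp' e
        exact Prod.ext (hp.2.trans hp'.2.symm) (sub_left_injective e))
  rw [Finset.sum_const, smul_eq_mul, ← Set.ncard_eq_toFinset_card, one_mul,
    C.ncard_norm3 hV hw0 (C.σB w w)] at h4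
  rw [← Set.ncard_eq_toFinset_card, one_mul] at h5
  have h6 := C.kappa ht ht0 hI hw hw0
  have h7 : 0 < {u ∈ (D : Set V) | C.Φ.B u u = C.Φ.B w w}.ncard :=
    (Set.ncard_pos (Set.toFinite _)).2 ⟨w, hw, rfl⟩
  have h8 := h4.trans (h3.trans (Nat.mul_le_mul_left _ h5))
  generalize {u ∈ (D : Set V) | C.Φ.B u u = C.Φ.B w w}.ncard = k at h6 h7 h8
  generalize (D : Set V).ncard = d at h h6 ⊢
  generalize (gorb C.G D).ncard = T at h8 ⊢
  obtain ⟨r, hr⟩ : ∃ r, C.q = r + 1 := ⟨C.q - 1, by have := C.two_le; omega⟩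
  rw [hr] at h h6 h8 ⊢
  rw [show (r + 1) ^ 2 - 1 = r * (r + 2) by apply Nat.sub_eq_of_eq_add; ring] at h8
  rw [Nat.add_sub_cancel] at h6
  refine Nat.le_of_mul_le_mul_right ?_ (c := k * (r + 1) ^ 4) (by positivity)
  calc (r + 1 + 1) * d * (k * (r + 1) ^ 4) ≤ (r + 1 + 1) * (r + 1) ^ 3 *
        ((r + 1) ^ 3 * (r * (r + 1) ^ 3)) := Nat.mul_le_mul (Nat.mul_le_mul_left _ h)
          (h6.trans (Nat.mul_le_mul_right _ h))
    _ ≤ (r + 1) ^ 3 * ((r + 1) ^ 2 * ((r + 1) ^ 3 + 1) * ((r + 1) * (r * (r + 2)))) := by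
        nlinarith [Nat.zero_le ((r + 1) ^ 6 * r * (r + 2))]
    _ ≤ (r + 1) ^ 3 * (T * (k * (r + 1) ^ 2)) := Nat.mul_le_mul_left _ h8
    _ = _ := by ring

theorem h1_three : C.H1 := by
  intro t ht ht0 D hD hI
  have := finite_of_fd F V
  have h := C.card_iso_le ht ht0 hI
  rw [hV] at h
  rw [← SetLike.coe_sort_coe D, Nat.card_coe_set_eq] at h ⊢
  have hline : ∀ v : V, v ≠ 0 → (∀ u ∈ D, u ∈ F ∙ v) →
      (C.q + 1) * (D : Set V).ncard ≤ C.q * (gorb C.G D).ncard := fun v hv h1 =>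
    C.h3_small hV hD (le_trans (Set.ncard_le_ncard
      (show (D : Set V) ⊆ ((F ∙ v : Submodule F V) : Set V) from h1)) (by
      rw [C.ncard_sub, finrank_span_singleton hv]))
  have hone : ∀ U : Submodule F V, finrank F U = 2 → ∀ y ∈ C.Φ.perp U, y ≠ 0 →
      ∀ z ∈ C.Φ.perp U, z ∈ F ∙ y := fun U hU y hy hy0 z hz => by
    have h1 := C.hΦ.finrank_perp_add U
    rwa [Submodule.eq_of_le_of_finrank_le ((Submodule.span_singleton_le_iff_mem _ _).2 hy)
      (by rw [finrank_span_singleton hy0]; omega)]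
  by_cases h1 : ∃ w ∈ D, ∃ s ∈ D, C.Φ.B w w ≠ 0 ∧
    C.Φ.B w w * C.Φ.B s s - C.Φ.B w s * C.Φ.B s w ≠ 0
  · obtain ⟨w, hw, s, hs, h1, h2⟩ := h1
    exact C.h3_main hV ht ht0 hI h hw hs h1 h2
  push Not at h1
  have hN : ∀ u v, C.Φ.B u v * C.Φ.B v u = 0 → C.Φ.B u v = 0 := fun u v e =>
    (mul_eq_zero.1 e).elim id C.Φ.B_eq_zero_symm
  by_cases h2 : ∃ w ∈ D, C.Φ.B w w ≠ 0
  · obtain ⟨w, hw, hw0⟩ := h2
    have hw1 : w ≠ 0 := by rintro rfl; simp at hw0
    have h3 : ∀ u ∈ D, ∀ v ∈ D, C.Φ.B u u * C.Φ.B v v - C.Φ.B u v * C.Φ.B v u = 0 := by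
      intro u hu v hv
      by_cases h4 : C.Φ.B u u = 0
      swap
      · exact h1 u hu v hv h4
      by_cases h5 : C.Φ.B v v = 0
      swap
      · linear_combination h1 v hv u hu h5
      have h6 := hN w u (by linear_combination C.Φ.B w w * h4 - h1 w hw u hu hw0)
      have h7 := hN w v (by linear_combination C.Φ.B w w * h5 - h1 w hw v hv hw0)
      have h8 := h1 _ (D.add_mem hw hu) v hv (by simpa [h4, h6, C.Φ.B_eq_zero_symm h6] using hw0)
      simpa [h4, h5, h7, C.Φ.B_eq_zero_symm h7] using h8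
    have hdec : ∀ s ∈ D, ∃ (y : V) (c : F), s = y + c • w ∧ C.Φ.B w y = 0 ∧ C.Φ.B y y = 0 := by
      intro s hs
      refine ⟨s - (C.Φ.B w s / C.Φ.B w w) • w, _, (sub_add_cancel _ _).symm, by simp [hw0], ?_⟩
      simp only [map_sub, LinearMap.sub_apply, B_smul_left, B_smul_right, map_div₀, σB]
      field_simp
      linear_combination h3 w hw s hs
    have h4 : ∀ (y y' : V) (c c' : F), y + c • w ∈ D → y' + c' • w ∈ D → C.Φ.B w y = 0 →
        C.Φ.B y y = 0 → C.Φ.B w y' = 0 → C.Φ.B y' y' = 0 → C.Φ.B y y' = 0 := by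
      intro y y' c c' k1 k2 k3 k4 k5 k6
      have l1 := h3 _ k1 _ k2
      have l2 := h3 _ (D.add_mem k1 hw) _ k2
      have l3 := h3 _ k1 _ (D.add_mem k2 hw)
      have l4 := h3 _ (D.add_mem k1 hw) _ (D.add_mem k2 hw)
      simp only [map_add, LinearMap.add_apply, B_smul_left, B_smul_right, k3, k4, k5, k6,
        C.Φ.B_eq_zero_symm k3, C.Φ.B_eq_zero_symm k5] at l1 l2 l3 l4
      have m1 : C.Φ.B y y' + C.Φ.B y' y = 0 :=
        mul_left_cancel₀ hw0 (by linear_combination l2 + l3 - l1 - l4)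
      have m2 : C.Φ.B y y' * C.σ c' + C.Φ.B y' y * c' = 0 :=
        mul_left_cancel₀ hw0 (by linear_combination l1 - l2)
      have m3 : C.Φ.B y y' * c + C.Φ.B y' y * C.σ c = 0 :=
        mul_left_cancel₀ hw0 (by linear_combination l1 - l3)
      by_contra m4
      have m5 : C.σ c' = c' := mul_left_cancel₀ m4 (by linear_combination m2 - c' * m1)
      rw [m5] at l1
      exact m4 (hN _ _ (by linear_combination -l1 - C.Φ.B w w * c' * m3))
    by_cases h5 : ∀ u ∈ D, u ∈ F ∙ w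
    · exact hline w hw1 h5
    push Not at h5
    obtain ⟨s, hs, h5⟩ := h5
    obtain ⟨y, c, rfl, k1, k2⟩ := hdec s hs
    have hy0 : y ≠ 0 := by
      rintro rfl
      exact h5 (by simpa using (F ∙ w).smul_mem c (Submodule.mem_span_singleton_self w))
    refine C.h3_plane hV h hw hw0 hy0 k2 (fun u hu => ?_) fun z hz => ?_
    · obtain ⟨y', c', rfl, k3, k4⟩ := hdec u hu
      simp [h4 y y' c c' hs hu k1 k2 k3 k4, C.Φ.B_eq_zero_symm k1]
    · refine hone _ (LC.finrank_span_two hw1 h5) y (mem_perp_pair.2 ⟨k1, by simp [k1, k2]⟩) hy0 z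
        (mem_perp_pair.2 ⟨C.Φ.B_eq_zero_symm (hz w hw), C.Φ.B_eq_zero_symm (hz _ hs)⟩)
  push Not at h2
  by_cases h3 : ∀ u ∈ D, ∀ v ∈ D, C.Φ.B u v = 0
  · obtain ⟨⟨v, hv⟩, h0⟩ := AddSubgroup.ne_bot_iff_exists_ne_zero.1 hD
    have hv0 : v ≠ 0 := fun e => h0 (Subtype.ext e)
    refine hline v hv0 fun u hu => by_contra fun h4 => h4 ?_
    exact hone _ (LC.finrank_span_two hv0 h4) v (mem_perp_pair.2 ⟨h3 v hv v hv, h3 u hu v hv⟩) hv0 u
      (mem_perp_pair.2 ⟨h3 v hv u hu, h3 u hu u hu⟩)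
  push Not at h3
  obtain ⟨u, hu, v, hv, h3⟩ := h3
  have h4 : ∀ a ∈ D, ∀ b ∈ D, C.Φ.B a b ∈ C.Zs := fun a ha b hb => by
    have := h2 _ (D.add_mem ha hb)
    simp only [map_add, LinearMap.add_apply, h2 a ha, h2 b hb] at this
    rw [mem_Zs, σB]
    linear_combination this
  refine C.h3_small hV hD ?_
  rw [sq, ← C.card_Zs, ← SetLike.coe_sort_coe C.Zs, Nat.card_coe_set_eq, ← Set.ncard_prod]
  refine Set.ncard_le_ncard_of_injOn (fun z => (C.Φ.B u z, C.Φ.B v z))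
    (fun z hz => ⟨h4 u hu z hz, h4 v hv z hz⟩) fun a ha b hb e => ?_
  simp only [Prod.mk.injEq] at e
  by_contra h5
  have hu0 : u ≠ 0 := by rintro rfl; simp at h3
  have hvu : v ∉ F ∙ u := fun e => by
    obtain ⟨c, rfl⟩ := Submodule.mem_span_singleton.1 e
    simp [h2 u hu] at h3
  have hh := hyp_smul (C.sing.2 (h2 u hu)) (C.sing.2 (h2 v hv)) h3
  have h6 : a - b ∈ C.Φ.perp (Submodule.span F {u, (C.Φ.B u v)⁻¹ • v}) :=
    mem_perp_pair.2 ⟨by simp [e.1], by simp [e.2]⟩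
  refine h5 (sub_eq_zero.1 (congrArg Subtype.val (hh.nondeg_perp C.hΦ ⟨_, h6⟩ fun z => ?_)))
  obtain ⟨c, hc⟩ := Submodule.mem_span_singleton.1
    (hone _ hh.finrank_span _ h6 (sub_ne_zero.2 h5) z z.2)
  change C.Φ.B (a - b) z = 0
  rw [← hc, B_smul_right, h2 _ (D.sub_mem ha hb), mul_zero]

omit hV in
theorem h1_odd (m : ℕ) : ∀ {V : Type u} [AddCommGroup V] [Module F V] [FiniteDimensional F V]
    (C : UC F V), finrank F V = 2 * m + 3 → C.H1 := by
  induction m with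
  | zero => exact fun C h => C.h1_three h
  | succ m ih =>
    exact fun C h => C.h1_step (by omega) fun c c' hh => ih _ (by rw [finrank_res hh]; omega)

end UC

theorem minIdx_PSU_odd {F : Type*} [Field F] [Fintype F] {q : ℕ} (hF : Fintype.card F = q ^ 2)
    (n : ℕ) (hn : 5 ≤ n) (ho : Odd n) :
    MinIdx (PSU n F q) ((q ^ n + 1) * (q ^ (n - 1) - 1) / (q ^ 2 - 1)) := by
  obtain ⟨m, rfl⟩ : ∃ m, n = 2 * m + 5 := by obtain ⟨m, rfl⟩ := ho; exact ⟨m - 2, by omega⟩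
  have he := Nat.not_even_iff_odd.2 ho
  have hq := two_le_of_card_eq_sq hF
  have h := (stdUC hF (2 * m + 5)).minIdx_iso (by simp) (fun c c' hh =>
    UC.h1_odd m _ (by rw [UC.finrank_res hh]; simp))
    (b := (q ^ (2 * m + 5) + 1) * (q ^ (2 * m + 5 - 1) - 1) / (q ^ 2 - 1)) (by
      rw [UC.ncard_iso, Module.finrank_fin_fun, if_neg he]
      refine Nat.div_mul_cancel (Dvd.dvd.mul_left ?_ _)
      have := Nat.sub_dvd_pow_sub_pow (q ^ 2) 1 (m + 2)
      rwa [one_pow, ← pow_mul] at this) fun a ha h => by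
      rw [UC.ncard_iso, UC.ncard_norm _ ha h, Module.finrank_fin_fun, if_neg he, if_neg he]
      change _ ≤ (q - 1) * (q ^ _ * (q ^ _ + 1))
      rw [mul_comm, ← mul_assoc]
      refine Nat.mul_le_mul_right _ ?_
      change q ^ _ - 1 ≤ _
      have := Nat.mul_le_mul_right (q ^ (2 * m + 5 - 1)) (show 1 ≤ q - 1 by omega)
      omega
  rwa [Module.finrank_fin_fun] at h

end H22
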