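import Cfsg.Agent.H7.CL4
import Cfsg.Agent.H24.StCh
import Cfsg.Agent.H24.Misc
import Cfsg.Agent.H22.IsoF
import Cfsg.Agent.S2544
import Cfsg.Agent.S0244
import Cfsg.Agent.S0165

/-! Characters of degree the order of a Sylow subgroup. -/

set_option autoImplicit false

open Cfsg H17 Finset

namespace H22

/-- an irreducible character of degree the `p`-part of the order -/
def DZ (p : ℕ) (G : Type*) [Group G] : Prop :=
  ∃ χ : G → ℂ, IsIrrCharacter G χ ∧ χ 1 = (p ^ (Nat.card G).factorization p : ℕ)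

variable {p : ℕ} {G H : Type*} [Group G] [Group H]

theorem DZ.out [Fact p.Prime] [Finite G] (h : DZ p G) : ∃ χ : G → ℂ, IsIrrCharacter G χ ∧
    ∀ P : Sylow p G, χ 1 = Nat.card P ∧ ∀ x : G, x ∈ P → x ≠ 1 → χ x = 0 := by
  obtain ⟨χ, hχ, h4⟩ := h
  refine ⟨χ, hχ, fun P => ⟨by rw [h4, P.card_eq_multiplicity], fun x hx hx1 => ?_⟩⟩
  obtain ⟨d, ρ, hρ, rfl⟩ := hχ
  rw [ρ.char_one, Nat.cast_inj] at h4
  refine Cfsg.Agent.S0165.result ρ p _ Fact.out (Nat.ordProj_dvd _ _)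
    (Nat.pow_succ_factorization_not_dvd Nat.card_pos.ne' Fact.out) h4.symm.dvd x ?_
  obtain ⟨k, hk⟩ := IsPGroup.iff_orderOf.1 P.isPGroup' ⟨x, hx⟩
  rw [Subgroup.orderOf_mk] at hk
  rw [hk]
  exact dvd_pow_self p (by rintro rfl; exact hx1 (by simpa using hk))

theorem DZ.congr (h : DZ p G) (e : H ≃* G) : DZ p H := by
  obtain ⟨χ, hχ, h4⟩ := h
  exact ⟨_, hχ.comp_equiv e, by simp only [map_one, h4, Nat.card_congr e.toEquiv]⟩

theorem DZ.prod [Fact p.Prime] [Finite G] [Finite H] (h : DZ p G) (h' : DZ p H) : DZ p (G × H) := by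
  obtain ⟨χ, hχ, h4⟩ := h
  obtain ⟨ψ, hψ, h5⟩ := h'
  refine ⟨_, hχ.prod hψ, ?_⟩
  simp only [Prod.fst_one, Prod.snd_one, h4, h5, Nat.card_prod,
    Nat.factorization_mul Nat.card_pos.ne' Nat.card_pos.ne', Finsupp.add_apply, pow_add, Nat.cast_mul]

theorem dz_of_subsingleton [Subsingleton G] : DZ p G :=
  ⟨_, isIrr_one, by simp [Nat.card_of_subsingleton (1 : G)]⟩

theorem dz_quot [Fact p.Prime] [Finite G] {χ : G → ℂ} (hχ : IsIrrCharacter G χ) {k : ℕ}
    (h1 : χ 1 = (p ^ k : ℕ)) (hk : (Nat.card G).factorization p ≤ k) (N : Subgroup G) [N.Normal]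
    (hN : ∀ z ∈ N, χ z = χ 1) : DZ p (G ⧸ N) := by
  obtain ⟨ψ, hψ, rfl⟩ := hχ.exists_quotient N fun z hz => hχ.mem_charKer.2 (hN z hz)
  refine ⟨ψ, hψ, ?_⟩
  have h2 : ψ 1 = (p ^ k : ℕ) := h1
  have h3 := (Nat.Prime.pow_dvd_iff_le_factorization Fact.out Nat.card_pos.ne').1 (hψ.degree_dvd_card h2)
  have h4 := (Nat.factorization_le_iff_dvd Nat.card_pos.ne' Nat.card_pos.ne').2
    (Subgroup.card_quotient_dvd_card N) p
  rw [h2, le_antisymm h3 (h4.trans hk)]

theorem dz_quot_comm (h : ∀ a b : G, a * b = b * a) : DZ p (G ⧸ Subgroup.center G) := by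
  have : Subsingleton (G ⧸ Subgroup.center G) := ⟨fun a b => by
    obtain ⟨a, rfl⟩ := QuotientGroup.mk_surjective a
    obtain ⟨b, rfl⟩ := QuotientGroup.mk_surjective b
    exact QuotientGroup.eq.2 (Subgroup.mem_center_iff.2 fun g => h _ _)⟩
  exact dz_of_subsingleton

variable {F : Type*} [Field F] [Fintype F] [Fact p.Prime] [CharP F p]

theorem dz_st {ι Φ : Type} [Fintype ι] [DecidableEq ι] [Fintype Φ] [DecidableEq Φ] {R : H24.CD ι Φ}
    [Finite G] (S : H24.St R F G) (hG : S.Gr = ⊤) : DZ p (G ⧸ Subgroup.center G) := by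
  classical
  have := Fintype.ofFinite G
  have h := (S.sylU hG S.r3_of_finite p).card_eq_multiplicity
  change Nat.card S.U = _ at h
  refine dz_quot (S.isIrr_stCh hG) (by rw [S.stCh_one hG, h]) le_rfl _ fun z hz => ?_
  have hH : z ∈ S.H := (S.center_eq hG ▸ hz).1
  rw [S.stCh_B hG (S.H_le_B hH), S.stCh_B hG (one_mem _)]
  congr 2
  unfold H24.cnt
  congr 1
  ext x
  simp [mul_assoc, ← Subgroup.mem_center_iff.1 hz x, hH]

theorem dz_PSL (n : ℕ) (hn : 2 ≤ n) : DZ p (Matrix.ProjectiveSpecialLinearGroup (Fin n) F) := by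
  obtain ⟨χ, h1, h2⟩ := Cfsg.Agent.S2544.result (F := F) p n hn
  obtain ⟨P⟩ : Nonempty (Sylow p (Matrix.ProjectiveSpecialLinearGroup (Fin n) F)) := inferInstance
  exact ⟨χ, h1, by rw [(h2 P).1, P.card_eq_multiplicity]⟩

open Matrix in
theorem sp_one_equiv (F : Type*) [Field F] :
    Nonempty (symplecticGroup (Fin 1) F ≃* SpecialLinearGroup (Fin 2) F) :=
  ⟨{ toFun := fun A => ⟨reindex finSumFinEquiv finSumFinEquiv A.1, by
        rw [det_reindex_self]; exact (Cfsg.Agent.S0244.result _).1 A.2⟩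
     invFun := fun A => ⟨reindex finSumFinEquiv.symm finSumFinEquiv.symm A.1,
        (Cfsg.Agent.S0244.result _).2 (by rw [det_reindex_self]; exact A.2)⟩
     left_inv := fun A => Subtype.ext (by simp)
     right_inv := fun A => Subtype.ext (by simp)
     map_mul' := fun A B => Subtype.ext (by
        simp only [Submonoid.coe_mul, SpecialLinearGroup.coe_mul, reindex_apply]
        exact (submatrix_mul_equiv _ _ _ _ _).symm) }⟩

theorem comm_of_dihedral {n : ℕ} (e : G ≃* DihedralGroup n) (a b : commutator G) : a * b = b * a := by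
  have key : ∀ x ∈ commutator (DihedralGroup n), ∃ i, x = DihedralGroup.r i := by
    let K : Subgroup (DihedralGroup n) :=
      { carrier := {x | ∃ i, x = DihedralGroup.r i}
        mul_mem' := by rintro _ _ ⟨i, rfl⟩ ⟨j, rfl⟩; exact ⟨_, rfl⟩
        one_mem' := ⟨0, rfl⟩
        inv_mem' := by rintro _ ⟨i, rfl⟩; exact ⟨_, rfl⟩ }
    intro x hx
    refine (show commutator _ ≤ K from Subgroup.commutator_le.2 ?_) hx
    rintro (i | i) - (j | j) - <;> exact ⟨_, rfl⟩
  obtain ⟨i, hi⟩ := key _ (commutatorCongr e a).2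
  obtain ⟨j, hj⟩ := key _ (commutatorCongr e b).2
  refine (commutatorCongr e).injective (Subtype.ext ?_)
  simp only [map_mul, Subgroup.coe_mul, hi, hj, DihedralGroup.r_mul_r, add_comm]

end H22
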