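import Cfsg.Agent.H22.StA
import Cfsg.Agent.H26.BN
import Cfsg.Agent.H24.Om
import Cfsg.Agent.H22.IsoE
import Cfsg.Agent.S0281
import Cfsg.Agent.S0306

/-! The Steinberg character of a finite group with a (B,N)-pair. -/

set_option autoImplicit false

namespace H22

open Cfsg H26 H26.BN Finset
open scoped Classical

section Cox

variable {S W : Type*} [Group W] (E : ExchSys S W)

/-- standard parabolic subgroups of a Coxeter group -/
def cWJ (J : Set S) : Subgroup W where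
  carrier := {w | ∃ l : List S, (∀ s ∈ l, s ∈ J) ∧ wp E.σ l = w}
  mul_mem' := by
    rintro _ _ ⟨l, hl, rfl⟩ ⟨m, hm, rfl⟩
    exact ⟨l ++ m, by simpa [or_imp, forall_and] using ⟨hl, hm⟩, by simp⟩
  one_mem' := ⟨[], by simp, rfl⟩
  inv_mem' := by rintro _ ⟨l, hl, rfl⟩; exact ⟨l.reverse, by simpa, wp_reverse _ E.sq l⟩

/-- reduced on both sides -/
def Rd (K J : Set S) (w : W) : Prop := (∀ k ∈ K, E.Pos k w) ∧ ∀ j ∈ J, E.Pos j w⁻¹

/-- of minimal length in the double coset -/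
def Mn (K J : Set S) (w : W) : Prop :=
  ∀ a ∈ cWJ E K, ∀ b ∈ cWJ E J, len E.σ w ≤ len E.σ (a * w * b)

variable {E} {K J : Set S} {w : W}

theorem gen_mem_cWJ {s : S} (h : s ∈ J) : E.σ s ∈ cWJ E J := ⟨[s], by simpa, by simp⟩

theorem Mn.rd (h : Mn E K J w) : Rd E K J w := by
  refine ⟨fun k hk => by_contra fun e => ?_, fun j hj => by_contra fun e => ?_⟩
  · have := h _ (gen_mem_cWJ hk) 1 (one_mem _)
    rw [mul_one] at this
    exact this.not_gt (E.len_lt_of_not_pos e)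
  · have := h 1 (one_mem _) _ (inv_mem (gen_mem_cWJ hj))
    have h1 := E.len_lt_of_not_pos e
    rw [len_inv E.gen E.sq, ← len_inv E.gen E.sq, mul_inv_rev, inv_inv] at h1
    rw [one_mul] at this
    exact this.not_gt h1

variable (E K J w) in
theorem exists_mn : ∃ a ∈ cWJ E K, ∃ b ∈ cWJ E J, Mn E K J (a * w * b) := by
  obtain ⟨⟨a, b⟩, h⟩ := exists_minimalFor_of_wellFoundedLT (fun x : W × W =>
    x.1 ∈ cWJ E K ∧ x.2 ∈ cWJ E J) (fun x => len E.σ (x.1 * w * x.2)) ⟨(1, 1), one_mem _, one_mem _⟩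
  refine ⟨a, h.1.1, b, h.1.2, fun c hc d hd => by_contra fun e => ?_⟩
  have := h.2 (j := (c * a, b * d)) ⟨mul_mem hc h.1.1, mul_mem h.1.2 hd⟩
  simp only [mul_assoc] at this e
  omega

theorem Mn.split {l : List S} (h : Mn E K J (wp E.σ l)) (hl : Red E.σ l) {a b : W}
    (ha : a ∈ cWJ E K) (hb : b ∈ cWJ E J) : ∃ x y : List S, (∀ s ∈ x, s ∈ K) ∧ (∀ s ∈ y, s ∈ J) ∧
      (K = ∅ → x = []) ∧ Red E.σ (x ++ (l ++ y)) ∧ wp E.σ (x ++ (l ++ y)) = a * wp E.σ l * b := by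
  obtain ⟨x, hx, rfl⟩ := ha
  obtain ⟨y, hy, rfl⟩ := hb
  obtain ⟨m, h1, h2, h3⟩ := E.exists_red_sublist (x ++ (l ++ y))
  obtain ⟨x', m, rfl, a1, h1⟩ := List.sublist_append_iff.1 h1
  obtain ⟨l', y', rfl, a2, a3⟩ := List.sublist_append_iff.1 h1
  have b1 : ∀ s ∈ x', s ∈ K := fun s hs => hx s (a1.subset hs)
  have b2 : ∀ s ∈ y', s ∈ J := fun s hs => hy s (a3.subset hs)
  obtain rfl : l' = l := a2.eq_of_length_le (by
    have := h ((wp E.σ x')⁻¹ * wp E.σ x) (mul_mem (inv_mem ⟨x', b1, rfl⟩) ⟨x, hx, rfl⟩)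
      (wp E.σ y * (wp E.σ y')⁻¹) (mul_mem ⟨y, hy, rfl⟩ (inv_mem ⟨y', b2, rfl⟩))
    simp only [wp_append] at h3
    rw [hl, show (wp E.σ x')⁻¹ * wp E.σ x * wp E.σ l * (wp E.σ y * (wp E.σ y')⁻¹) =
      (wp E.σ x')⁻¹ * (wp E.σ x * (wp E.σ l * wp E.σ y)) * (wp E.σ y')⁻¹ by group, ← h3] at this
    exact this.trans (by simpa [mul_assoc] using len_le E.σ l'))
  exact ⟨x', y', b1, b2, by rintro rfl; exact List.eq_nil_iff_forall_not_mem.2 b1, h2, by
    simpa [mul_assoc] using h3⟩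

theorem nil_of_pos {x l : List S} (h : Red E.σ (x ++ l)) (h' : ∀ s ∈ x, E.Pos s (wp E.σ (x ++ l))) :
    x = [] := by
  obtain _ | ⟨s, x⟩ := x
  · rfl
  · exact absurd (h' s (by simp)) (E.not_pos_of_red h)

theorem red_reverse {l : List S} (h : Red E.σ l) : Red E.σ l.reverse := by
  rw [Red, wp_reverse _ E.sq, len_inv E.gen E.sq, h, List.length_reverse]

theorem Mn.eq_of_rd (h : Mn E K J w) {a b : W} (ha : a ∈ cWJ E K) (hb : b ∈ cWJ E J)
    (h' : Rd E K J (a * w * b)) : a * w * b = w := by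
  obtain ⟨l, rfl, hl⟩ := exists_red E.gen w
  obtain ⟨x, y, a1, a2, -, a3, a4⟩ := h.split hl ha hb
  rw [← a4] at h' ⊢
  obtain rfl := nil_of_pos a3 fun s hs => h'.1 s (a1 s hs)
  have := red_reverse a3
  rw [List.nil_append, List.reverse_append] at this
  rw [List.reverse_eq_nil_iff.1 (nil_of_pos this fun s hs => by
    rw [← List.reverse_append, wp_reverse _ E.sq]; exact h'.2 s (a2 s (by simpa using hs)))]
  simp

theorem Rd.mn (h : Rd E K J w) : Mn E K J w := by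
  obtain ⟨a, ha, b, hb, h1⟩ := exists_mn E K J w
  have := h1.eq_of_rd (inv_mem ha) (inv_mem hb) (by simpa [mul_assoc] using h)
  rwa [← this, show a⁻¹ * (a * w * b) * b⁻¹ = w by group] at h1

theorem exists_prefix (h : ∀ s, ¬ E.Pos s w) (m : List S) (hm : Red E.σ m) :
    ∃ u, Red E.σ (m ++ u) ∧ wp E.σ (m ++ u) = w := by
  induction m with
  | nil => obtain ⟨l, h1, h2⟩ := exists_red E.gen w; exact ⟨l, h2, h1⟩
  | cons s m ih =>
    obtain ⟨u, h1, rfl⟩ := ih (hm.tail E.gen)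
    obtain ⟨x, t, y, h2, h3⟩ := E.exch s _ (h s)
    have key : ∀ x t y, E.σ s * wp E.σ x = wp E.σ x * E.σ t →
        E.σ s * wp E.σ (x ++ t :: y) = wp E.σ (x ++ y) := fun x t y h => by
      rw [wp_append, wp_append, wp_cons, ← mul_assoc, h, mul_assoc, ← mul_assoc (E.σ t), E.sq, one_mul]
    rcases List.append_eq_append_iff.1 h2 with ⟨z, rfl, rfl⟩ | ⟨z, rfl, h4⟩
    · have h4 : wp E.σ (s :: m ++ (z ++ y)) = wp E.σ (m ++ (z ++ t :: y)) := by
        rw [List.cons_append, wp_cons, ← List.append_assoc, ← key _ _ _ h3, ← mul_assoc, E.sq,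
          one_mul, List.append_assoc]
      exact ⟨z ++ y, by rw [Red, h4, h1]; simp; omega, h4⟩
    · obtain _ | ⟨t', z⟩ := z
      · obtain rfl : t :: y = u := h4
        have h4 : wp E.σ (s :: (x ++ []) ++ y) = wp E.σ (x ++ [] ++ t :: y) := by
          rw [List.cons_append, wp_cons, List.append_nil, ← key _ _ _ h3, ← mul_assoc, E.sq, one_mul]
        exact ⟨y, by rw [Red, h4, h1]; simp; omega, h4⟩
      · obtain ⟨rfl, -⟩ := List.cons.inj h4
        have := len_le E.σ (x ++ z)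
        rw [← key _ _ _ h3, ← wp_cons, hm] at this
        simp at this

variable (E) in
theorem exists_longest [Finite W] : ∃ w₀ : W, (∀ w, (∀ s, ¬ E.Pos s w) ↔ w = w₀) ∧ w₀⁻¹ = w₀ := by
  obtain ⟨w₀, h⟩ := Finite.exists_max (len E.σ)
  have h1 : ∀ w, len E.σ w = len E.σ w₀ → ∀ s, ¬ E.Pos s w := fun w hw s hs =>
    (E.len_lt_of_pos hs).not_ge (hw ▸ h _)
  have h2 : ∀ w, (∀ s, ¬ E.Pos s w) → w = w₀ := fun w hw => by
    obtain ⟨l, rfl, hl⟩ := exists_red E.gen w₀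
    obtain ⟨u, h3, rfl⟩ := exists_prefix hw l hl
    have := h (wp E.σ (l ++ u))
    rw [h3, hl, List.length_append] at this
    rw [List.length_eq_zero_iff.1 (show u.length = 0 by omega), List.append_nil]
  exact ⟨w₀, fun w => ⟨h2 w, fun e => h1 w (e ▸ rfl)⟩, h2 _ (h1 _ (len_inv E.gen E.sq _))⟩

end Cox

variable {G : Type*} [Group G] {P : BNPair G} {K J : Set P.S}

theorem cell_red (l m : List P.S) (h : Red (sW P) (l ++ m)) {x y : G} (hx : x ∈ cell (wp (sW P) l))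
    (hy : y ∈ cell (wp (sW P) m)) : x * y ∈ cell (wp (sW P) (l ++ m)) := by
  induction l generalizing x with
  | nil => exact mul_mem_cell_left (mem_cell_one.1 hx) hy
  | cons s l ih =>
    obtain ⟨n, hn, hn'⟩ := cell_nonempty (wp (sW P) l)
    obtain ⟨b, hb, b', hb', rfl⟩ := exists_eq_of_mem_cell (g := (s : G) * n)
      (by rw [wp_cons, ← hn]; exact self_mem_cell (sN P s * n)) hx
    have := (exchSys P).pos_of_red h _ (mul_mem_cell_left hb (gen_mem_cell s)) _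
      (ih (h.tail W_gen) (mul_mem_cell_right hn' hb'))
    simpa only [mul_assoc] using! this

variable (P) in
/-- standard parabolic subgroups -/
def bPJ (J : Set P.S) : Subgroup G := P.parabolic (Subtype.val '' J)

theorem mem_bPJ {g : G} : g ∈ bPJ P J ↔ ∃ v ∈ cWJ (exchSys P) J, g ∈ cell v := by
  rw [bPJ, mem_parabolic_iff (by rintro _ ⟨s, -, rfl⟩; exact s.2)]
  simp only [Subtype.val_injective.mem_set_image]
  exact ⟨fun ⟨l, h1, h2⟩ => ⟨_, ⟨l, h1, rfl⟩, h2⟩, fun ⟨_, ⟨l, h1, rfl⟩, h2⟩ => ⟨l, h1, h2⟩⟩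

theorem B_le_bPJ (J : Set P.S) : P.B ≤ bPJ P J := B_le_parabolic _

variable (P) in
/-- the Bruhat cell of an element -/
noncomputable def bwc (x : G) : W P := (exists_mem_cell x).choose

theorem bwc_mem (x : G) : x ∈ cell (bwc P x) := (exists_mem_cell x).choose_spec

theorem bwc_eq {x : G} {w : W P} (h : x ∈ cell w) : bwc P x = w := eq_of_mem_cell (bwc_mem x) h

theorem mem_B_of_rd {x y : G} (hx : Rd (exchSys P) ∅ J (bwc P x)) (hy : Rd (exchSys P) ∅ J (bwc P y))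
    (h : x⁻¹ * y ∈ bPJ P J) : x⁻¹ * y ∈ P.B := by
  obtain ⟨v, hv, h⟩ := mem_bPJ.1 h
  obtain ⟨l, h1, h2⟩ := exists_red W_gen (bwc P x)
  obtain ⟨a, b, -, -, a1, a2, a3⟩ := Mn.split (E := exchSys P) (h1 ▸ hx.mn) h2 (one_mem _) hv
  obtain rfl := a1 rfl
  have a4 : wp (sW P) b = v := mul_left_cancel (a := wp (sW P) l) (by simpa using! a3)
  have a5 := bwc_eq (cell_red l b a2 (h1 ▸ bwc_mem x) (a4 ▸ h))
  rw [mul_inv_cancel_left, wp_append, h1, a4, ← one_mul (bwc P x)] at a5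
  have := hx.mn.eq_of_rd (one_mem _) hv (a5 ▸ hy)
  rw [one_mul, mul_eq_left] at this
  exact mem_cell_one.1 (this ▸ h)

variable (K J) in
theorem exists_bdc (x : G) : ∃ a ∈ bPJ P K, ∃ b ∈ bPJ P J, ∃ n : P.N, (K = ∅ → a ∈ P.B) ∧
    a * x * b = n ∧ Rd (exchSys P) K J n := by
  obtain ⟨a, ha, b, hb, h⟩ := exists_mn (exchSys P) K J (bwc P x)
  obtain ⟨n, hn, c, hc, c', hc', e⟩ := bwc_mem (P := P) x
  obtain ⟨a, rfl⟩ := QuotientGroup.mk_surjective a
  obtain ⟨b, rfl⟩ := QuotientGroup.mk_surjective b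
  have h1 := mem_bPJ.2 ⟨_, ha, self_mem_cell a⟩
  refine ⟨a * c⁻¹, mul_mem h1 (B_le_bPJ _ (inv_mem hc)), c'⁻¹ * b,
    mul_mem (B_le_bPJ _ (inv_mem hc')) (mem_bPJ.2 ⟨_, hb, self_mem_cell b⟩), a * n * b, ?_, by
      rw [e]; push_cast; group, by rw [← hn] at h; exact h.rd⟩
  rintro rfl
  obtain ⟨l, hl, h2⟩ := ha
  obtain rfl := List.eq_nil_iff_forall_not_mem.2 hl
  exact mul_mem ((mk_eq_one_iff a).1 h2.symm) (inv_mem hc)

theorem bwc_mul {a x : G} (ha : a ∈ bPJ P K) : ∃ v ∈ cWJ (exchSys P) K, bwc P (a * x) = v * bwc P x := by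
  obtain ⟨_, ⟨l, hl, rfl⟩, h⟩ := mem_bPJ.1 ha
  obtain ⟨m, h1, h2⟩ := cell_wp_mul l h (bwc_mem x)
  exact ⟨_, ⟨m, fun s hs => hl s (h1.subset hs), rfl⟩, bwc_eq h2⟩

variable [Fintype G]

theorem card_rd : Nat.card G * Nat.card P.B =
    #{y ∈ (univ : Finset G) | ∀ j ∈ J, Pos j (bwc P y)⁻¹} * Nat.card (bPJ P J) := by
  have := H24.count_mul (fun y => Rd (exchSys P) ∅ J (bwc P y)) (fun _ => True) (fun _ => True)
    (bPJ P J) (Nat.card P.B) (fun x _ => by
      obtain ⟨a, -, b, hb, n, ha, h1, h⟩ := exists_bdc ∅ J x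
      have h0 : bwc P (x * b) = n := bwc_eq (by
        simpa [← h1, mul_assoc] using mul_mem_cell_left (inv_mem (ha rfl)) (self_mem_cell n))
      rw [← H24.card_coset P.B (x * b)]
      congr 1
      ext y
      simp only [mem_filter, mem_univ, true_and]
      refine ⟨fun ⟨h1, h2⟩ => mem_B_of_rd (h0 ▸ h) h1 (by
        simpa [mul_assoc] using mul_mem (inv_mem hb) (inv_mem h2)), fun h1 => ⟨?_, ?_⟩⟩
      · have := bwc_eq (mul_mem_cell_right (bwc_mem (P := P) (x * b)) h1)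
        rw [mul_inv_cancel_left, h0] at this
        exact this ▸ h
      · simpa [mul_assoc] using mul_mem (inv_mem (B_le_bPJ J h1)) (inv_mem hb))
    (fun _ _ _ _ => trivial) fun _ _ _ => Iff.rfl
  simpa [Rd] using! this

variable [Fintype (W P)] [Fintype P.S]

theorem sum_bfpc (K J : Set P.S) : ∑ g : bPJ P K, fixedPointCharacter (bPJ P J) (g : G) =
    #{w ∈ ({w | ∀ k ∈ K, Pos k w} : Finset (W P)) | ∀ j ∈ J, Pos j w⁻¹} * Nat.card (bPJ P K) := by
  have := MulAction.sum_card_fixedBy_eq_card_orbits_mul_card_group (bPJ P K) (G ⧸ bPJ P J)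
  simp only [← Nat.card_eq_fintype_card] at this
  simp only [Cfsg.fixedPointCharacter]
  norm_cast
  refine this.trans ?_
  congr 1
  rw [← Fintype.card_coe, ← Nat.card_eq_fintype_card]
  choose n hn hr using fun w : W P => cell_nonempty w
  symm
  refine Nat.card_eq_of_bijective (fun w => Quotient.mk'' ((n w.1 : G) : G ⧸ bPJ P J)) ⟨?_, fun y => ?_⟩
  · rintro ⟨w, hw⟩ ⟨w', hw'⟩ e
    simp only [mem_filter, mem_univ, true_and] at hw hw'
    obtain ⟨a, e⟩ := Quotient.exact' e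
    have e' : (a * n w' : G)⁻¹ * n w ∈ bPJ P J := QuotientGroup.eq.1 e
    obtain ⟨v, hv, h1⟩ := bwc_mul (x := (n w' : G)) a.2
    obtain ⟨v', hv', h2⟩ := bwc_mul (x := (a * n w' : G)⁻¹) (inv_mem e')
    rw [mul_inv_rev, inv_inv, mul_inv_cancel_right, bwc_eq (inv_mem_cell (hr w)),
      bwc_eq (inv_mem_cell (bwc_mem _)), h1, bwc_eq (hr w'), inv_eq_iff_eq_inv, mul_inv_rev,
      inv_inv] at h2
    exact Subtype.ext (h2.trans ((Rd.mn (E := exchSys P) hw').eq_of_rd hv (inv_mem hv') (h2 ▸ hw)))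
  · obtain ⟨⟨x⟩⟩ := y
    obtain ⟨a, ha, b, hb, w, -, h1, h⟩ := exists_bdc K J x
    refine ⟨⟨w, by simpa [Rd] using! h⟩, Quotient.sound' ⟨⟨a, ha⟩, QuotientGroup.eq.2 ?_⟩⟩
    have := mul_mem hb (B_le_bPJ J ((mk_eq_iff _ _).1 (hn w).symm))
    rw [← h1] at this
    simpa [mul_assoc] using this

variable (P) in
/-- the Steinberg character -/
noncomputable def bSt : G → ℂ :=
  fun g => ∑ J : Finset P.S, (-1 : ℂ) ^ #J * fixedPointCharacter (bPJ P J) g

omit [Fintype (W P)] in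
theorem bSt_eq_sum : bSt P =
    ∑ J : Finset P.S, (((-1) ^ #J : ℤ) : ℂ) • indFun (bPJ P J) fun _ => 1 := by
  ext g
  simp [bSt, H17.indFun_one_eq_perm, Cfsg.fixedPointCharacter]

omit [Fintype (W P)] in
theorem isGen_bSt : IsGeneralizedCharacter G (bSt P) := by
  rw [bSt_eq_sum]
  exact H17.isGen_sum _ _ fun J _ => H17.Cfsg.IsGeneralizedCharacter.intCast_smul
    (H17.Cfsg.IsGeneralizedCharacter.ind H17.isGen_one) _

variable {w₀ : W P} (h0 : ∀ w, (∀ s, ¬ Pos s w) ↔ w = w₀) (h1 : w₀⁻¹ = w₀)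
include h0 h1

omit [Fintype (W P)] in
theorem bSt_one : bSt P 1 * Nat.card P.B = #{y : G | y ∈ cell w₀} := by
  have := H24.alt_sum univ (univ : Finset G) fun y j => Pos j (bwc P y)⁻¹
  rw [powerset_univ] at this
  rw [bSt, sum_mul]
  refine (sum_congr rfl fun J _ => ?_).trans (this.trans ?_)
  · have h := congrArg (Nat.cast : ℕ → ℂ) (card_rd (J := (J : Set P.S)))
    push_cast at h
    rw [H24.fpc_eq, mul_assoc, div_mul_eq_mul_div, show H24.cnt ⊤ (bPJ P J) 1 = Nat.card G by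
      simp [H24.cnt], h, mul_div_cancel_right₀ _ (Nat.cast_ne_zero.2 Nat.card_pos.ne')]
    congr!
  · congr 2
    ext y
    simp only [mem_filter, mem_univ, true_and, true_imp_iff, h0, inv_eq_iff_eq_inv, h1]
    exact ⟨fun h => h ▸ bwc_mem y, bwc_eq⟩

theorem sum_bSt (K : Finset P.S) :
    ∑ g : bPJ P K, bSt P g = if K = ∅ then (Nat.card (bPJ P K) : ℂ) else 0 := by
  simp only [bSt]
  rw [sum_comm]
  simp only [← mul_sum, sum_bfpc, ← mul_assoc, ← sum_mul]
  have := H24.alt_sum univ ({w | ∀ k ∈ (K : Set P.S), Pos k w} : Finset (W P)) fun w j => Pos j w⁻¹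
  rw [powerset_univ] at this
  refine (congrArg (· * _) (Eq.trans (by congr!) this)).trans ?_
  simp only [mem_univ, true_imp_iff, h0, inv_eq_iff_eq_inv, h1]
  split_ifs with h
  · rw [card_eq_one.2 ⟨w₀, Finset.ext fun w => by simp [h]⟩]
    simp
  · obtain ⟨k, hk⟩ := nonempty_iff_ne_empty.2 h
    rw [card_eq_zero.2 (Finset.eq_empty_of_forall_notMem fun w hw => ?_)]
    · simp
    simp only [mem_filter, mem_univ, true_and] at hw
    exact (h0 w).2 hw.2 k (hw.1 k hk)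

theorem isIrr_bSt : IsIrrCharacter G (bSt P) := by
  refine H17.Cfsg.IsGeneralizedCharacter.isIrr_of_norm_one isGen_bSt ?_ ?_
  · have h0' : ∀ g, starRingEnd ℂ (bSt P g) = bSt P g := fun g => by
      simp [bSt, Cfsg.fixedPointCharacter]
    simp only [Cfsg.classInner, h0']
    conv => enter [1, 2, 2, g, 1]; rw [bSt_eq_sum]
    simp only [Finset.sum_apply, sum_mul, Pi.smul_apply, smul_eq_mul, mul_assoc]
    rw [sum_comm]
    simp only [← mul_sum, H17.sum_indFun_mul _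
      (H17.Cfsg.IsGeneralizedCharacter.isClassFunction (isGen_bSt (P := P))), one_mul,
      sum_bSt h0 h1, mul_ite, mul_zero, sum_ite_eq', mem_univ, if_true, card_empty, pow_zero,
      Int.cast_one]
    rw [← Nat.cast_mul, Subgroup.index_mul_card, inv_mul_cancel₀ (Nat.cast_ne_zero.2 Nat.card_pos.ne')]
  · rw [eq_div_of_mul_eq (Nat.cast_ne_zero.2 Nat.card_pos.ne') (bSt_one h0 h1), ← Complex.ofReal_natCast,
      ← Complex.ofReal_natCast, ← Complex.ofReal_div, Complex.ofReal_re]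
    positivity

omit h0 h1 [Fintype (W P)] [Fintype P.S]

theorem card_cell (n : P.N) : #{y : G | y ∈ cell (n : W P)} *
    #{c : G | c ∈ P.B ∧ (n : G)⁻¹ * c * n ∈ P.B} = Nat.card P.B * Nat.card P.B := by
  have := H24.count_mul (fun y => y * (n : G)⁻¹ ∈ P.B) (· ∈ cell (n : W P)) (fun _ => True) P.B
    #{c : G | c ∈ P.B ∧ (n : G)⁻¹ * c * n ∈ P.B} (fun x hx => by
      obtain ⟨b, hb, b', hb', rfl⟩ := mem_cell_mk.1 hx
      refine card_bij (fun y _ => b⁻¹ * y * (n : G)⁻¹) (fun y hy => ?_) (by simp)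
        fun c hc => ⟨b * c * n, ?_, by group⟩
      · simp only [mem_filter, mem_univ, true_and] at hy ⊢
        exact ⟨by simpa [mul_assoc] using mul_mem (inv_mem hb) hy.1, by
          simpa [mul_assoc] using mul_mem hb' (inv_mem hy.2)⟩
      · simp only [mem_filter, mem_univ, true_and] at hc ⊢
        exact ⟨by simpa using mul_mem hb hc.1, by
          simpa [mul_assoc] using mul_mem (inv_mem hc.2) hb'⟩)
    (fun y hy p hp => mem_cell_mk.2 ⟨_, hy, _, hp, by group⟩) fun _ _ _ => Iff.rfl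
  simp only [and_true] at this
  rw [this, ← H24.card_coset P.B 1]
  congr 1
  exact card_bij (fun y _ => y * (n : G)⁻¹) (by simp) (by simp) fun c hc => ⟨c * n, by simpa using hc, by simp⟩

omit [Fintype G] in
theorem dz_bn {p k : ℕ} [Fact p.Prime] [Finite G] (P : BNPair G) (n : P.N)
    (h : ∀ b ∈ P.B, (n : G)⁻¹ * b * n ∈ P.B → b ∈ P.N)
    (hk : Nat.card P.B = p ^ k * Nat.card ↥(P.B ⊓ P.N)) (hs : (Nat.card G).factorization p ≤ k) :
    DZ p (G ⧸ Subgroup.center G) := by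
  have := Fintype.ofFinite G
  have := Fintype.ofFinite (W P)
  have := Fintype.ofFinite P.S
  obtain ⟨w₀, h0, h1⟩ := exists_longest (exchSys P)
  obtain ⟨n₀, rfl⟩ := QuotientGroup.mk_surjective w₀
  have a1 : #{y : G | y ∈ cell (n : W P)} ≤ #{y : G | y ∈ cell (n₀ : W P)} := by
    obtain ⟨l, b1, b2⟩ := exists_red W_gen (n : W P)
    obtain ⟨u, b3, b4⟩ := exists_prefix ((h0 _).2 rfl) l b2
    obtain ⟨m, -, hm⟩ := cell_nonempty (wp (sW P) u)
    refine card_le_card_of_injOn (· * (m : G)) (fun y hy => ?_) (by simp [Set.InjOn])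
    simp only [coe_filter, mem_univ, true_and, Set.mem_ofPred_eq] at hy ⊢
    exact b4 ▸ cell_red l u b3 (b1 ▸ hy) hm
  have a2 : ∀ n : P.N, Nat.card ↥(P.B ⊓ P.N) ≤ #{c : G | c ∈ P.B ∧ (n : G)⁻¹ * c * n ∈ P.B} :=
    fun n => by
      rw [← H24.card_coset _ 1]
      refine card_le_card fun c => ?_
      simp only [mem_filter, mem_univ, true_and, inv_one, one_mul]
      exact fun hc => ⟨hc.1, by simpa using P.conj_mem _ (inv_mem n.2) c hc⟩
  have a3 : #{c : G | c ∈ P.B ∧ (n : G)⁻¹ * c * n ∈ P.B} ≤ Nat.card ↥(P.B ⊓ P.N) := by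
    rw [← H24.card_coset _ 1]
    refine card_le_card fun c => ?_
    simp only [mem_filter, mem_univ, true_and, inv_one, one_mul]
    exact fun hc => ⟨hc.1, h c hc.1 hc.2⟩
  have a4 : #{y : G | y ∈ cell (n₀ : W P)} = p ^ k * Nat.card P.B :=
    Nat.eq_of_mul_eq_mul_right (Nat.card_pos (α := ↥(P.B ⊓ P.N))) (by
      rw [mul_right_comm, ← hk]
      exact le_antisymm (card_cell n₀ ▸ Nat.mul_le_mul_left _ (a2 n₀))
        (card_cell n ▸ Nat.mul_le_mul a1 a3))
  refine dz_quot (isIrr_bSt h0 h1) (mul_right_cancel₀ (Nat.cast_ne_zero.2 Nat.card_pos.ne')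
    ((bSt_one h0 h1).trans (by rw [a4, Nat.cast_mul]))) hs _ fun z hz => ?_
  have hz' : z ∈ P.B := mem_of_conj_le le_rfl fun b hb => by
    rwa [← Subgroup.mem_center_iff.1 hz b, mul_inv_cancel_right]
  refine sum_congr rfl fun J _ => ?_
  rw [H24.fpc_eq, H24.fpc_eq]
  congr 3
  unfold H24.cnt
  congr 1
  ext x
  simp [mul_assoc, ← Subgroup.mem_center_iff.1 hz x, B_le_bPJ _ hz']

omit [Fintype G] in
theorem dz_tw {ι Φ : Type} [Fintype ι] [DecidableEq ι] [Fintype Φ] [DecidableEq Φ] {R : H24.CD ι Φ}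
    {F : Type*} [Field F] [Fintype F] {p : ℕ} [Fact p.Prime] [CharP F p] [Finite G]
    {S : H24.St R F G} {z : H24.Tw S} {κ : Type} {O : z.sym.Orb κ} {M : Subgroup G}
    (hM : z.Sub O M) : DZ p (M ⧸ Subgroup.center M) := by
  have hc : ∀ A : Subgroup G, Nat.card (A.subgroupOf M) = Nat.card ↥(A ⊓ M) := fun A => by
    rw [← Subgroup.inf_subgroupOf_right]
    exact Nat.card_congr (Subgroup.subgroupOfEquivOfLe inf_le_right).toEquiv
  let U : Sylow p M := ⟨S.U.subgroupOf M, (S.isPGroup_U p).comap_subtype, fun {Q} hQ hle => by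
    by_contra hne
    have := hQ.isNilpotent
    have h1 : (S.U.subgroupOf M).subgroupOf Q < ⊤ :=
      lt_top_iff_ne_top.2 fun h => hne (le_antisymm (Subgroup.subgroupOf_eq_top.1 h) hle)
    obtain ⟨g, hg, hg'⟩ := SetLike.exists_of_lt (Group.normalizerCondition_of_isNilpotent _ h1)
    obtain ⟨k, hk⟩ := hQ g
    replace hk : (g.1 : G) ^ p ^ k = 1 := congrArg (fun a : Q => (a.1 : G)) hk
    obtain ⟨u, hu, h, hh, e⟩ := S.mem_B_iff.1 (hM.mem_B_of_conj g.1.2 fun x hx =>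
      (Subgroup.mem_normalizer_iff.1 hg ⟨⟨x, hM.U_le hx⟩, hle hx.1⟩).1 hx.1)
    have h2 := S.pow_mem_of_B hu hh (p ^ k)
    rw [← e, hk, one_mul, inv_mem_iff] at h2
    exact hg' (show (g.1 : G) ∈ S.U from e ▸ S.U.mul_mem hu (H24.mem_of_pow_coprime
      (H24.St.coprime_card (F := F) p k) h2 (by rw [S.pow_card_H' hh]; exact one_mem _)))⟩
  obtain ⟨n, hn, hr⟩ := hM.exists_n0
  refine dz_bn hM.bn ⟨⟨n, hn.2⟩, hn.1⟩ (fun b hb h => ?_) ?_ le_rfl
  · have := (S.mem_Y hr hb).1 h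
    rw [S.UJ_univ, bot_sup_eq] at this
    exact S.H_le_N this
  · rw [← U.card_eq_multiplicity]
    change Nat.card (S.B.subgroupOf M) = Nat.card (S.U.subgroupOf M) *
      Nat.card ((S.B ⊓ S.N).subgroupOf M)
    rw [hc, hc, hc, hM.card_B, S.B_inf_N, hM.U_inf]

theorem exists_small (F : Type*) [Field F] [Fintype F] (p : ℕ) [CharP F p] :
    ∃ (K : Type) (_ : Field K) (_ : Fintype K) (_ : CharP K p), Nonempty (F ≃+* K) := by
  haveI : Small.{0} F := Countable.toSmall F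
  let e : Shrink.{0} F ≃ F := (equivShrink.{0} F).symm
  haveI : Finite (Shrink.{0} F) := Finite.of_equiv _ e.symm
  letI := e.field
  exact ⟨_, this, Fintype.ofFinite _, charP_of_injective_ringHom (f := e.ringEquiv.symm.toRingHom)
    e.ringEquiv.symm.injective p, ⟨e.ringEquiv.symm⟩⟩

variable {F : Type*} [Field F] [Fintype F] {p : ℕ} [Fact p.Prime] [CharP F p]

theorem dz_PSU {n q : ℕ} (hn : 2 ≤ n) (hF : Fintype.card F = q ^ 2) : DZ p (PSU n F q) := by
  obtain _ | _ | _ | m := n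
  · omega
  · omega
  · obtain ⟨k, hp, hk⟩ := FiniteField.card F p
    obtain ⟨f, -, rfl⟩ := (Nat.dvd_prime_pow hp).1 (hk ▸ hF ▸ dvd_pow_self q two_ne_zero)
    have := Fintype.ofFinite (GaloisField p f)
    obtain ⟨e⟩ := Cfsg.Agent.S0281.result (K := GaloisField p f) hF (by
      rw [← Nat.card_eq_fintype_card, GaloisField.card]
      rintro rfl
      exact Fintype.one_lt_card.ne' hF)
    exact (dz_PSL (F := GaloisField p f) 2 le_rfl).congr (quotCenterCongr e)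
  obtain ⟨K, _, _, _, ⟨e⟩⟩ := exists_small F p
  have hK := (Fintype.card_congr e.toEquiv).symm.trans hF
  obtain ⟨ψ, h1, h2⟩ := H24.exists_su_hom (n := m + 3) hK
  exact (dz_tw (H24.su_sub (m := m) _ (H23.conj_conj hK) (H23.conj_ne_id hK)).1.sub_Fx).congr
    (quotCenterCongr ((suCongr e _ _).trans ((MonoidHom.ofInjective h1).trans
      (MulEquiv.subgroupCongr (Subgroup.ext fun g => by
        rw [h2, H7.slA_Gr, top_inf_eq]; rfl)))))

theorem dz_minus (m : ℕ) {a b : F}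
    (hab : ∀ z₁ z₂ : F, z₁ ^ 2 + a * z₁ * z₂ + b * z₂ ^ 2 = 0 → z₁ = 0 ∧ z₂ = 0) :
    DZ p (POmega F (quadFormMinus m F a b)) := by
  obtain ⟨L, _, _, _, hL⟩ := exists_ext F two_ne_zero
  have := charP_of_injective_algebraMap (algebraMap F L).injective p
  obtain _ | _ | _ | m := m
  · obtain ⟨e⟩ := Cfsg.Agent.S0306.result rfl a b hab
    exact dz_quot_comm (comm_of_dihedral e)
  · obtain ⟨e⟩ := pomega_minus_four hL hab
    exact (dz_PSL 2 le_rfl).congr e
  · obtain ⟨e⟩ := pomega_minus_six hL hab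
    exact (dz_PSU (by omega) hL).congr e
  obtain ⟨K, _, _, _, ⟨e⟩⟩ := exists_small F p
  obtain ⟨L, _, _, _, hL, hm, ⟨f⟩⟩ := H24.exists_minus_equiv (m := m + 2) K (by omega)
    (a := e a) (b := e b) fun x y h => by
      obtain ⟨x, rfl⟩ := e.surjective x
      obtain ⟨y, rfl⟩ := e.surjective y
      simpa using hab x y (e.injective (by simpa using h))
  have := charP_of_injective_algebraMap (algebraMap K L).injective p
  exact (dz_tw (H24.om_sub _ (H23.conj_conj hL) hm).1).congr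
    ((pOmegaCongr e (quadFormMinus_comp e _ a b)).trans (quotCenterCongr f))

end H22
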