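import Cfsg.Agent.H26.Rv1
import Cfsg.Agent.H22.LsE
import Cfsg.Agent.H23.Classify

/-! The Weil character gives a function of the kind needed for real vectors. -/

set_option autoImplicit false

namespace H22.Wl

open Cfsg H17 H19 H26Rv Subgroup Module H23 H23.Form H22.Ls

universe u

section
variable {F V : Type*} [Field F] [AddCommGroup V] [Module F V] {Φ : Form (RingHom.id F) V}
  {e : AddChar F ℂ} {W : Type*} [AddCommGroup W] [Module ℂ W] (D : WD Φ e W) [Fintype V]
  [FiniteDimensional ℂ W] [DecidableEq V]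

theorem repr_mul (M N : End ℂ W) (y : V) : D.bs.repr (M * N) y =
    ∑ x, D.bs.repr M x * D.bs.repr N (y - x) * e (Φ.B x (y - x) / 2) := by
  conv_lhs => rw [← D.bs.sum_repr M, ← D.bs.sum_repr N]
  simp only [Finset.mul_sum, Finset.sum_mul, smul_mul_assoc, mul_smul_comm, WD.bs_apply, D.mul]
  simp only [map_sum, map_smul, ← WD.bs_apply, Basis.repr_self, Finsupp.coe_finsetSum,
    Finset.sum_apply, Finsupp.smul_apply, Finsupp.single_apply, smul_eq_mul, Finset.mul_sum]
  rw [Finset.sum_comm]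
  refine Finset.sum_congr rfl fun x _ => ?_
  rw [Finset.sum_eq_single (y - x)]
  · simp; ring
  · intro z _ hz
    rw [if_neg fun h => hz (by rw [← h]; simp)]
    simp
  · simp

omit [DecidableEq V] in
theorem avg (M : End ℂ W) : ∑ u, D.w u * M * D.w (-u) =
    ((finrank ℂ W : ℂ) * LinearMap.trace ℂ W M) • (1 : End ℂ W) := by
  obtain ⟨c, hc⟩ := D.scalar (T := ∑ u, D.w u * M * D.w (-u)) fun v => by
    simp only [Finset.mul_sum, Finset.sum_mul]
    refine (Fintype.sum_equiv (Equiv.addLeft v) _ _ fun u => ?_).symm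
    simp only [Equiv.coe_addLeft, ← mul_assoc, D.mul v u, smul_mul_assoc]
    rw [mul_assoc _ (D.w (-(v + u))), D.mul, mul_smul_comm, show -(v + u) + v = -u by abel]
    congr 2
    simp [D.alt, D.skew v u]
  have := congrArg (LinearMap.trace ℂ W) hc
  simp only [map_sum, map_smul, LinearMap.trace_one, smul_eq_mul] at this
  rw [Finset.sum_congr rfl fun u _ => show LinearMap.trace ℂ W (D.w u * M * D.w (-u)) =
    LinearMap.trace ℂ W M by rw [LinearMap.trace_mul_comm, ← mul_assoc, D.neg_mul, one_mul],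
    Finset.sum_const, Finset.card_univ, nsmul_eq_mul, D.dim'] at this
  rw [hc, mul_right_cancel₀ D.dim_ne (show c * finrank ℂ W =
    (finrank ℂ W : ℂ) * LinearMap.trace ℂ W M * finrank ℂ W by rw [← this]; ring)]

end

variable {p : ℕ} [Fact p.Prime] {H : Type u} [Group H] [Finite H] {O : ValuationSubring ℂ}

theorem e_pow (a : ZMod p) : (ZMod.stdAddChar a : ℂ) ^ p = 1 := by
  rw [← AddChar.map_nsmul_eq_pow, nsmul_eq_mul, ZMod.natCast_self, zero_mul, AddChar.map_zero_eq_one]

theorem e_int (a : ZMod p) : IsIntegral ℤ (ZMod.stdAddChar a : ℂ) :=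
  IsIntegral.of_pow (Fact.out : p.Prime).pos (by rw [e_pow]; exact isIntegral_one)

theorem exists_WD (hp : p ≠ 2) {U : Type u} [AddCommGroup U] [Module (ZMod p) U] [Finite U]
    {β : U →ₗ[ZMod p] U →ₗ[ZMod p] ZMod p} (hA : LinearMap.IsAlt β)
    (hB : (ofAlt β hA).Nondeg) :
    ∃ m : ℕ, Nonempty (WD (ofAlt β hA) ZMod.stdAddChar ((Fin m → ZMod p) → ℂ)) := by
  have h2 : (2 : ZMod p) ≠ 0 := fun h => hp ((Nat.prime_dvd_prime_iff_eq Fact.out Nat.prime_two).1
    ((ZMod.natCast_eq_zero_iff 2 p).1 (by exact_mod_cast h)))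
  have he : ∃ a : ZMod p, (ZMod.stdAddChar a : ℂ) ≠ 1 := ⟨1, fun h => one_ne_zero
    (ZMod.injective_stdAddChar (h.trans (AddChar.map_zero_eq_one _).symm))⟩
  obtain ⟨m, b, h1, h3, h4⟩ := exists_symplectic_basis hA hB
  let φ := (b.reindex (Equiv.sumComm _ _)).equivFun
  have hφ : ∀ x y, (H22.spForm m (ZMod p)).B (φ x) (φ y) = β x y := fun x y => by
    have : (H22.spForm m (ZMod p)).B.compl₁₂ φ.toLinearMap φ.toLinearMap = β :=
      LinearMap.ext_basis b b fun i j => by
        have h5 := fun i j => (LinearMap.BilinForm.IsAlt.neg_eq hA (b (.inl i)) (b (.inr j))).symm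
        rcases i with i | i <;> rcases j with j | j <;>
          simp [φ, H22.spForm_B, sympForm_eq, h1, h3, h4, h5, Finsupp.single_apply, eq_comm]
    exact congrArg (fun B => B x y) this
  let S := stdWD (ZMod p) m h2 he
  refine ⟨m, ⟨⟨fun u => S.w (φ u), fun u v => by rw [S.mul, hφ, map_add]; rfl,
    by rw [map_zero, S.zero], by rw [S.dim, Nat.card_congr φ.toEquiv], hB, rfl, rfl, h2, he⟩⟩⟩

theorem weil [CharP (kk O) p] (hi : InvP p H) : WeilP p H O := by
  classical
  intro hp U _ _ _ ρ β hβ hA hB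
  obtain ⟨m, ⟨D⟩⟩ := exists_WD hp (β := β) hA hB
  have := Fintype.ofFinite U
  obtain ⟨ω0, hω0⟩ := D.exists_weil
  let ι : H →* (ofAlt β hA).O := MonoidHom.codRestrict
    ((LinearMap.GeneralLinearGroup.generalLinearEquiv (ZMod p) U).toMonoidHom.comp ρ.toHomUnits) _
    fun h => ⟨hβ h, fun _ => rfl⟩
  let ω : Representation ℂ H ((Fin m → ZMod p) → ℂ) := ω0.comp ι
  have hω : ∀ h v, ω h * D.w v = D.w (ρ h v) * ω h := fun h v => hω0 (ι h) v
  set d : ℕ := finrank ℂ ((Fin m → ZMod p) → ℂ) with hd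
  have hχ := isCharacter_character ω
  have hT : ∀ h, ∑ u, (ZMod.stdAddChar (β (ρ h u) (-u) / 2) : ℂ) • D.w (ρ h u - u) =
      ((d : ℂ) * ω.character h⁻¹) • ω h := fun h => by
    have := congrArg (ω h * ·) (avg D (ω h⁻¹))
    simp only [Finset.mul_sum, ← mul_assoc, hω, mul_smul_comm, mul_one] at this
    rw [Representation.character, ← this]
    refine Finset.sum_congr rfl fun u _ => ?_
    rw [mul_assoc (D.w _), ← map_mul, mul_inv_cancel, map_one, mul_one, D.mul, sub_eq_add_neg]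
    rfl
  have hfx : ∀ h, (fx ρ ⊤ h : ℂ) = (Finset.univ.filter fun u => ρ h u - u = 0).card := fun h => by
    rw [fx, Nat.card_eq_fintype_card, Fintype.card_subtype]
    simp [sub_eq_zero]
  have hf0 : ∀ h, (fx ρ ⊤ h : ℂ) ≠ 0 := fun h => by
    rw [hfx, Nat.cast_ne_zero, Finset.card_ne_zero]
    exact ⟨0, by simp⟩
  have hd0 : (d : ℂ) ≠ 0 := D.dim_ne
  have hcc : ∀ h, ω.character h⁻¹ * ω.character h = fx ρ ⊤ h := fun h => by
    have := congrArg (LinearMap.trace ℂ _) (hT h)
    simp only [map_sum, map_smul, smul_eq_mul] at this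
    rw [Finset.sum_congr rfl (g := fun u => if ρ h u - u = 0 then (d : ℂ) else 0) fun u _ => by
      split_ifs with h0
      · rw [h0, D.zero, LinearMap.trace_one, sub_eq_zero.1 h0]
        simp [hA u, hd]
      · rw [D.tr h0, mul_zero], ← Finset.sum_filter, Finset.sum_const, nsmul_eq_mul, ← hfx] at this
    refine mul_left_cancel₀ hd0 ?_
    rw [mul_comm (d : ℂ) (fx ρ ⊤ h : ℂ), this, mul_assoc]
    rfl
  have hco : ∀ h y, (y ∈ LinearMap.range (ρ h - 1) ∧ ∃ a : ZMod p,
      D.bs.repr (((d : ℂ) * ω.character h⁻¹ / fx ρ ⊤ h) • ω h) y = ZMod.stdAddChar a) ∨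
      (y ∉ LinearMap.range (ρ h - 1) ∧
        D.bs.repr (((d : ℂ) * ω.character h⁻¹ / fx ρ ⊤ h) • ω h) y = 0) := fun h y => by
    have e1 : D.bs.repr (((d : ℂ) * ω.character h⁻¹ / fx ρ ⊤ h) • ω h) y = (fx ρ ⊤ h : ℂ)⁻¹ *
        ∑ u, if ρ h u - u = y then (ZMod.stdAddChar (β (ρ h u) (-u) / 2) : ℂ) else 0 := by
      rw [div_eq_inv_mul, ← smul_smul, ← hT]
      simp only [map_sum, map_smul, ← WD.bs_apply, Basis.repr_self, Finsupp.coe_finsetSum,
        Finset.sum_apply, Finsupp.smul_apply, Finsupp.single_apply, smul_eq_mul, mul_ite, mul_one,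
        mul_zero]
    by_cases hy : y ∈ LinearMap.range (ρ h - 1)
    · obtain ⟨v, rfl⟩ := hy
      refine Or.inl ⟨⟨v, rfl⟩, β (ρ h v) (-v) / 2, ?_⟩
      rw [e1, ← Fintype.sum_equiv (Equiv.addLeft v) (fun k => if ρ h k - k = 0 then
        (ZMod.stdAddChar (β (ρ h v) (-v) / 2) : ℂ) else 0) _ fun k => ?_, ← Finset.sum_filter,
        Finset.sum_const, nsmul_eq_mul, ← hfx, ← mul_assoc, inv_mul_cancel₀ (hf0 h), one_mul]
      have e2 : ρ h (v + k) - (v + k) = (ρ h - 1) v ↔ ρ h k - k = 0 := by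
        rw [map_add, LinearMap.sub_apply, End.one_apply, add_sub_add_comm, add_eq_left]
      simp only [Equiv.coe_addLeft, e2]
      split_ifs with h0
      · have h1 := sub_eq_zero.1 h0
        have h2 : β (ρ h v) k = β v k := by rw [← hβ h v k, h1]
        have h3 : β k v = -β v k := (LinearMap.BilinForm.IsAlt.neg_eq hA v k).symm
        congr 2
        simp [h1, h2, h3, hA k]
      · rfl
    · refine Or.inr ⟨hy, ?_⟩
      rw [e1, Finset.sum_eq_zero fun u _ => if_neg fun (h0 : ρ h u - u = y) => hy ⟨u, h0⟩, mul_zero]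
  have hint : ∀ h n y, IsIntegral ℤ
      (D.bs.repr ((((d : ℂ) * ω.character h⁻¹ / fx ρ ⊤ h) • ω h) ^ n) y) := fun h n => by
    induction n with
    | zero =>
      intro y
      rw [pow_zero, ← D.zero, ← WD.bs_apply, Basis.repr_self, Finsupp.single_apply]
      split_ifs
      exacts [isIntegral_one, isIntegral_zero]
    | succ n ih =>
      intro y
      rw [pow_succ, repr_mul]
      refine IsIntegral.sum _ fun x _ => ((ih x).mul ?_).mul (e_int _)
      rcases hco h (y - x) with ⟨-, a, ha⟩ | ⟨-, ha⟩ <;> rw [ha]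
      exacts [e_int a, isIntegral_zero]
  have hpw : ∀ h k, D.bs.repr ((((d : ℂ) * ω.character h⁻¹ / fx ρ ⊤ h) • ω h) ^ (orderOf h * k)) 0 =
      ((d : ℂ) * ω.character h⁻¹ / fx ρ ⊤ h) ^ (orderOf h * k) := fun h k => by
    rw [smul_pow, ← map_pow, pow_mul h, pow_orderOf_eq_one, one_pow, map_one, map_smul, ← D.zero,
      ← WD.bs_apply, Basis.repr_self]
    simp
  refine ⟨fun h => (d : ℂ) * ω.character h⁻¹ / fx ρ ⊤ h, fun σ h => ?_, ?_, fun h => ?_,
    fun h hne => ?_, ?_⟩
  · have h1 := (Cfsg.IsCharacter.map_ringHom hχ σ.toRingHom).conj_apply h⁻¹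
    have h2 : ((‖σ (ω.character h⁻¹)‖ ^ 2 : ℝ) : ℂ) = fx ρ ⊤ h := by
      rw [← Complex.normSq_eq_norm_sq, ← Complex.mul_conj]
      erw [h1]
      rw [inv_inv, ← map_natCast σ, ← hcc, map_mul]
      rfl
    have h3 : ‖σ (ω.character h⁻¹)‖ ^ 2 = fx ρ ⊤ h := by exact_mod_cast h2
    have h4 : (fx ρ ⊤ h : ℝ) ≠ 0 := by exact_mod_cast hf0 h
    rw [← D.dim, map_div₀, map_mul, map_natCast, map_natCast, norm_div, norm_mul, div_pow, mul_pow,
      h3, Complex.norm_natCast, Complex.norm_natCast]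
    push_cast
    exact le_of_eq (by rw [← hd]; field_simp)
  · have := hcc 1
    rw [inv_one, Representation.char_one] at this
    rw [inv_one, Representation.char_one, div_eq_one_iff_eq (hf0 1), this]
  · have := hint h (orderOf h * 1) 0
    rw [hpw] at this
    exact IsIntegral.of_pow (by simpa using orderOf_pos h) this
  · have hY : ((Nat.card (LinearMap.range (ρ h - 1)) : ℕ) : ℂ) ∈ O.nonunits := by
      rw [natCast_mem_nonunits_iff p, Module.natCard_eq_pow_finrank (K := ZMod p), Nat.card_zmod]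
      refine dvd_pow_self _ fun h0 => hne ?_
      rw [Submodule.finrank_eq_zero, LinearMap.range_eq_bot, sub_eq_zero] at h0
      simp [fx, h0]
    have h2 : ∀ y, D.bs.repr ((((d : ℂ) * ω.character h⁻¹ / fx ρ ⊤ h) • ω h) ^ 2) y ∈ O.nonunits := by
      intro y
      rw [sq, repr_mul]
      by_cases hy : y ∈ LinearMap.range (ρ h - 1)
      · have e1 : ((Nat.card (LinearMap.range (ρ h - 1)) : ℕ) : ℂ) =
            ∑ x, if x ∈ LinearMap.range (ρ h - 1) then 1 else 0 := by
          rw [Finset.sum_boole, Nat.card_eq_fintype_card, Fintype.card_subtype]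
        rw [← sub_add_cancel (Finset.sum _ _) ((Nat.card (LinearMap.range (ρ h - 1)) : ℕ) : ℂ)]
        refine O.nonunits.add_mem ?_ hY
        rw [e1, ← Finset.sum_sub_distrib]
        refine sum_mem fun x _ => ?_
        rcases hco h x with ⟨hx, a, ha⟩ | ⟨hx, ha⟩
        · rcases hco h (y - x) with ⟨-, c, hc⟩ | ⟨hc, -⟩
          · rw [ha, hc, if_pos hx, ← AddChar.map_add_eq_mul, ← AddChar.map_add_eq_mul]
            exact sub_one_mem_nonunits_of_pow_prime_pow p (n := 1) (by rw [pow_one, e_pow])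
          · exact (hc (sub_mem hy hx)).elim
        · rw [ha, if_neg hx]
          simpa using O.nonunits.zero_mem
      · rw [Finset.sum_eq_zero fun x _ => ?_]
        · exact O.nonunits.zero_mem
        · rcases hco h x with ⟨hx, -⟩ | ⟨-, ha⟩
          · rcases hco h (y - x) with ⟨hc, -⟩ | ⟨-, hc⟩
            · exact (hy (by simpa using add_mem hc hx)).elim
            · rw [hc, mul_zero, zero_mul]
          · rw [ha, zero_mul, zero_mul]
    have h3 : ((d : ℂ) * ω.character h⁻¹ / fx ρ ⊤ h) ^ (orderOf h * 2) ∈ O.nonunits := by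
      have := orderOf_pos h
      rw [← hpw, show orderOf h * 2 = 2 + (orderOf h * 2 - 2) by omega, pow_add, repr_mul]
      exact sum_mem fun x _ => nonunits_mul_right (nonunits_mul_right (h2 x)
        (mem_of_isIntegral O (hint _ _ _))) (mem_of_isIntegral O (e_int _))
    rw [ValuationSubring.mem_nonunits_iff] at h3 ⊢
    rw [map_pow] at h3
    exact lt_of_not_ge fun h4 => absurd h3 (not_lt.2 (one_le_pow₀ h4))
  · obtain ⟨N, hN⟩ := hi U ρ
    refine ⟨N, ?_⟩
    convert smul_mem (isIntegral_natCast d) (H26Rv.mul_mem hN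
      (char_mem (Cfsg.IsCharacter.comp_inv hχ))) using 2
    ring

end H22.Wl
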